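import Mathlib

/-! Entropy bound for the order of a permutation group: average over all `t`-subsets `S` of the
orbit lengths of the pointwise stabiliser of `S`. -/

set_option autoImplicit false
set_option linter.unusedSectionVars false

namespace H96.PS

open MulAction Finset

section
variable (G : Type*) {Ω : Type*} [Group G] [MulAction G Ω]

/-- `x` and `y` are in the same orbit of the pointwise stabiliser of `S` -/
def Good (S : Finset Ω) (x y : Ω) : Prop := ∃ g : G, (∀ s ∈ S, g • s = s) ∧ g • x = y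

/-- pointwise stabiliser -/
def fixS (S : Finset Ω) : Subgroup G := fixingSubgroup G (S : Set Ω)

theorem auto_lemmas_Ent : True := by
  have := @Good.eq_1.{0,0}
  have := @fixS.eq_1.{0,0}
  trivial

variable {G}

theorem mem_fixS {S : Finset Ω} {g : G} : g ∈ fixS G S ↔ ∀ s ∈ S, g • s = s := by
  simp [fixS, mem_fixingSubgroup_iff]

theorem Good.mono {S S' : Finset Ω} (h : S ⊆ S') {x y : Ω} (hg : Good G S' x y) : Good G S x y := by
  obtain ⟨g, h1, h2⟩ := hg
  exact ⟨g, fun s hs => h1 s (h hs), h2⟩

theorem Good.symm {S : Finset Ω} {x y : Ω} (hg : Good G S x y) : Good G S y x := by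
  obtain ⟨g, h1, h2⟩ := hg
  refine ⟨g⁻¹, fun s hs => ?_, ?_⟩
  · rw [inv_smul_eq_iff, h1 s hs]
  · rw [inv_smul_eq_iff, h2]

theorem Good.notMem {S : Finset Ω} {x y : Ω} (hg : Good G S x y) (hxy : x ≠ y) : x ∉ S := by
  obtain ⟨g, h1, h2⟩ := hg
  intro hx
  exact hxy (by rw [← h2, h1 x hx])

theorem Good.refl (S : Finset Ω) (x : Ω) : Good G S x x := ⟨1, by simp, by simp⟩

end

variable {Ω : Type*} [Fintype Ω] [DecidableEq Ω]

theorem dc (t : ℕ) (f : Finset Ω → ℝ) :
    ∑ S ∈ powersetCard t (univ : Finset Ω), ∑ z ∈ Sᶜ, f (insert z S) =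
      (t + 1) * ∑ S ∈ powersetCard (t + 1) (univ : Finset Ω), f S := by
  have h1 : ∑ S ∈ powersetCard t (univ : Finset Ω), ∑ z ∈ Sᶜ, f (insert z S) =
      ∑ z : Ω, ∑ S ∈ (powersetCard t (univ : Finset Ω)).filter (fun S => z ∉ S), f (insert z S) := by
    apply Finset.sum_comm'
    intro S z
    simp
  have h2 : ∑ S ∈ powersetCard (t + 1) (univ : Finset Ω), ∑ _z ∈ S, f S =
      ∑ z : Ω, ∑ S ∈ (powersetCard (t + 1) (univ : Finset Ω)).filter (fun S => z ∈ S), f S := by
    apply Finset.sum_comm'
    intro S z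
    simp
  rw [h1, Finset.mul_sum]
  have h3 : ∀ S ∈ powersetCard (t + 1) (univ : Finset Ω), ((t : ℝ) + 1) * f S = ∑ _z ∈ S, f S := by
    intro S hS
    rw [mem_powersetCard] at hS
    simp [hS.2]
  rw [Finset.sum_congr rfl h3, h2]
  refine Finset.sum_congr rfl fun z _ => ?_
  refine Finset.sum_bij' (fun S _ => insert z S) (fun S _ => S.erase z) ?_ ?_ ?_ ?_ ?_
  · intro S hS
    simp only [mem_filter, mem_powersetCard, subset_univ, true_and] at hS ⊢
    exact ⟨by rw [card_insert_of_notMem hS.2, hS.1], mem_insert_self _ _⟩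
  · intro S hS
    simp only [mem_filter, mem_powersetCard, subset_univ, true_and] at hS ⊢
    exact ⟨by rw [card_erase_of_mem hS.2, hS.1]; rfl, notMem_erase _ _⟩
  · intro S hS
    simp only [mem_filter] at hS
    exact erase_insert hS.2
  · intro S hS
    simp only [mem_filter] at hS
    exact insert_erase hS.2
  · intro S _
    rfl

theorem choose_id (n t : ℕ) (hn : 2 ≤ n) :
    n * (n - 1) * (n - 2).choose t = (n - t) * (n - t - 1) * n.choose t := by
  obtain ⟨m, rfl⟩ : ∃ m, n = m + 2 := ⟨n - 2, by omega⟩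
  have h1 := Nat.choose_mul_succ_eq m t
  have h2 := Nat.choose_mul_succ_eq (m + 1) t
  have e1 : m + 2 - 1 = m + 1 := by omega
  have e2 : m + 2 - 2 = m := by omega
  have e3 : m + 2 - t - 1 = m + 1 - t := by omega
  have e4 : m + 1 + 1 = m + 2 := by omega
  rw [e1, e2, e3]
  rw [e4] at h2
  calc (m + 2) * (m + 1) * m.choose t = (m + 2) * (m.choose t * (m + 1)) := by ring
    _ = ((m + 1).choose t * (m + 2)) * (m + 1 - t) := by rw [h1]; ring
    _ = _ := by rw [h2]; ring

variable {G : Type*} [Group G] [MulAction G Ω] [Finite G]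

open Classical in
/-- number of `t`-sets that do not separate `x` from `y` -/
noncomputable def sig (G : Type*) [Group G] [MulAction G Ω] (x y : Ω) (t : ℕ) : ℕ :=
  ((powersetCard t (univ : Finset Ω)).filter (fun S => Good G S x y)).card

theorem auto_lemmas_Ent2 : True := by
  have := @sig.eq_1.{0,0}
  trivial

open Classical in
theorem card_fixS (S : Finset Ω) (z : Ω) :
    Nat.card (fixS G S) = (univ.filter (fun y => Good G S z y)).card * Nat.card (fixS G (insert z S)) := by
  have hle : fixS G (insert z S) ≤ fixS G S := by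
    intro g hg
    rw [mem_fixS] at hg ⊢
    exact fun s hs => hg s (mem_insert_of_mem hs)
  have hst : stabilizer (fixS G S) z = (fixS G (insert z S)).subgroupOf (fixS G S) := by
    ext g
    rw [mem_stabilizer_iff, Subgroup.mem_subgroupOf, mem_fixS]
    constructor
    · intro h s hs
      rcases mem_insert.mp hs with rfl | hs
      · exact h
      · exact mem_fixS.mp g.2 s hs
    · intro h
      exact h z (mem_insert_self _ _)
  have h1 := (stabilizer (fixS G S) z).index_mul_card
  rw [index_stabilizer, hst, Nat.card_congr (Subgroup.subgroupOfEquivOfLe hle).toEquiv] at h1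
  rw [← h1]
  congr 1
  rw [← Set.ncard_coe_finset]
  congr 1
  ext y
  simp only [coe_filter, mem_univ, true_and, Set.mem_ofPred_eq, mem_orbit_iff]
  constructor
  · rintro ⟨g, hg⟩
    exact ⟨g, mem_fixS.mp g.2, hg⟩
  · rintro ⟨g, h1, h2⟩
    exact ⟨⟨g, mem_fixS.mpr h1⟩, h2⟩

open Classical in
theorem sum_orb (t : ℕ) (c : ℝ) (hc : ∀ x y : Ω, x ≠ y → (sig G x y t : ℝ) ≤ c) :
    ∑ S ∈ powersetCard t (univ : Finset Ω), ∑ z ∈ Sᶜ, ((univ.filter (fun y => Good G S z y)).card : ℝ) ≤
      ((Fintype.card Ω - t : ℕ) : ℝ) * (Fintype.card Ω).choose t +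
        (Fintype.card Ω : ℝ) * ((Fintype.card Ω - 1 : ℕ) : ℝ) * c := by
  have h1 : ∀ (S : Finset Ω) (z : Ω), ((univ.filter (fun y => Good G S z y)).card : ℝ) =
      1 + ∑ y ∈ univ.erase z, if Good G S z y then (1 : ℝ) else 0 := by
    intro S z
    rw [Finset.card_filter, Nat.cast_sum, ← Finset.add_sum_erase _ _ (mem_univ z)]
    simp [Good.refl]
  simp_rw [h1, Finset.sum_add_distrib]
  apply add_le_add
  · apply le_of_eq
    have : ∀ S ∈ powersetCard t (univ : Finset Ω), ∑ _z ∈ Sᶜ, (1 : ℝ) = ((Fintype.card Ω - t : ℕ) : ℝ) := by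
      intro S hS
      rw [mem_powersetCard] at hS
      simp [card_compl, hS.2]
    rw [Finset.sum_congr rfl this]
    simp [card_powersetCard, mul_comm]
  · calc ∑ S ∈ powersetCard t (univ : Finset Ω), ∑ z ∈ Sᶜ, ∑ y ∈ univ.erase z, (if Good G S z y then (1 : ℝ) else 0)
        ≤ ∑ S ∈ powersetCard t (univ : Finset Ω), ∑ z : Ω, ∑ y ∈ univ.erase z, (if Good G S z y then (1 : ℝ) else 0) := by
          refine Finset.sum_le_sum fun S _ => ?_
          refine Finset.sum_le_sum_of_subset_of_nonneg (subset_univ _) fun z _ _ => ?_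
          exact Finset.sum_nonneg fun y _ => by split_ifs <;> norm_num
      _ = ∑ z : Ω, ∑ y ∈ univ.erase z, ∑ S ∈ powersetCard t (univ : Finset Ω), (if Good G S z y then (1 : ℝ) else 0) := by
          rw [Finset.sum_comm]
          refine Finset.sum_congr rfl fun z _ => ?_
          rw [Finset.sum_comm]
      _ ≤ ∑ z : Ω, ∑ _y ∈ univ.erase z, c := by
          refine Finset.sum_le_sum fun z _ => Finset.sum_le_sum fun y hy => ?_
          have := hc z y (ne_of_mem_erase hy).symm
          rw [sig, Finset.card_filter, Nat.cast_sum] at this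
          simpa using this
      _ = _ := by
          simp [card_erase_of_mem, mul_assoc]

/-- the entropy bound -/
theorem ent [FaithfulSMul G Ω] (hn : 2 ≤ Fintype.card Ω) (p A : ℕ → ℝ) (hp : ∀ t, 0 ≤ p t)
    (hs : ∀ x y : Ω, x ≠ y → ∀ t, (sig G x y t : ℝ) ≤ p t * (Fintype.card Ω - 2).choose t)
    (hA : ∀ t < Fintype.card Ω, 1 + ((Fintype.card Ω - t - 1 : ℕ) : ℝ) * p t ≤ A t) :
    (Nat.card G : ℝ) ≤ ∏ t ∈ range (Fintype.card Ω), A t := by
  classical
  set n := Fintype.card Ω with hn'
  have hA1 : ∀ t < n, 1 ≤ A t := fun t ht =>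
    le_trans (le_add_of_nonneg_right (mul_nonneg (Nat.cast_nonneg _) (hp t))) (hA t ht)
  let a : ℕ → ℝ := fun t => ∑ S ∈ powersetCard t (univ : Finset Ω), Real.log (Nat.card (fixS G S))
  have step : ∀ t < n, a t / n.choose t ≤ Real.log (A t) + a (t + 1) / n.choose (t + 1) := by
    intro t ht
    have hApos : 0 < A t := lt_of_lt_of_le one_pos (hA1 t ht)
    set M : ℝ := ((n - t : ℕ) : ℝ) * n.choose t with hM
    have hM' : M = (t + 1) * n.choose (t + 1) := by
      have := Nat.choose_succ_right_eq n t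
      rw [hM]
      have h2 : ((n.choose (t + 1) * (t + 1) : ℕ) : ℝ) = ((n.choose t * (n - t) : ℕ) : ℝ) := by rw [this]
      push_cast at h2
      linarith
    have hC : (0 : ℝ) < n.choose t := by exact_mod_cast Nat.choose_pos ht.le
    have hC' : (0 : ℝ) < n.choose (t + 1) := by exact_mod_cast Nat.choose_pos ht
    have hnt : (0 : ℝ) < ((n - t : ℕ) : ℝ) := by exact_mod_cast Nat.sub_pos_of_lt ht
    have hMpos : 0 < M := mul_pos hnt hC
    have horb := sum_orb (G := G) t (p t * (n - 2).choose t) (fun x y h => hs x y h t)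
    have hid : (n : ℝ) * ((n - 1 : ℕ) : ℝ) * (n - 2).choose t =
        ((n - t : ℕ) : ℝ) * ((n - t - 1 : ℕ) : ℝ) * n.choose t := by exact_mod_cast choose_id n t hn
    have horb2 : ∑ S ∈ powersetCard t (univ : Finset Ω), ∑ z ∈ Sᶜ,
        ((univ.filter (fun y => Good G S z y)).card : ℝ) ≤ M * A t := by
      refine le_trans horb ?_
      have : (n : ℝ) * ((n - 1 : ℕ) : ℝ) * (p t * (n - 2).choose t) = M * (((n - t - 1 : ℕ) : ℝ) * p t) := by
        rw [hM]; linear_combination (p t) * hid
      rw [← hn', this, ← hM]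
      have := mul_le_mul_of_nonneg_left (hA t ht) hMpos.le
      linarith
    have hcard : ∀ S ∈ powersetCard t (univ : Finset Ω), (Sᶜ).card = n - t := by
      intro S hS
      rw [mem_powersetCard] at hS
      simp [card_compl, hS.2, hn']
    have e1 : ((n - t : ℕ) : ℝ) * a t = ∑ S ∈ powersetCard t (univ : Finset Ω), ∑ z ∈ Sᶜ,
        (Real.log ((univ.filter (fun y => Good G S z y)).card) + Real.log (Nat.card (fixS G (insert z S)))) := by
      simp only [a]
      rw [Finset.mul_sum]
      refine Finset.sum_congr rfl fun S hS => ?_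
      have : ∀ z ∈ Sᶜ, Real.log ((univ.filter (fun y => Good G S z y)).card) +
          Real.log (Nat.card (fixS G (insert z S))) = Real.log (Nat.card (fixS G S)) := by
        intro z _
        rw [card_fixS S z, Nat.cast_mul, Real.log_mul]
        · exact_mod_cast (card_pos.mpr ⟨z, by simp [Good.refl]⟩).ne'
        · exact_mod_cast Nat.card_pos.ne'
      rw [Finset.sum_congr rfl this]
      simp [hcard S hS]
    simp_rw [Finset.sum_add_distrib] at e1
    rw [dc t (fun S => Real.log (Nat.card (fixS G S)))] at e1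
    have e2 : ∑ S ∈ powersetCard t (univ : Finset Ω), ∑ z ∈ Sᶜ,
        Real.log ((univ.filter (fun y => Good G S z y)).card) ≤ M * Real.log (A t) := by
      have hl : ∀ (S : Finset Ω) (z : Ω), Real.log ((univ.filter (fun y => Good G S z y)).card) ≤
          (Real.log (A t) - 1) + ((univ.filter (fun y => Good G S z y)).card : ℝ) / A t := by
        intro S z
        have hpos : (0 : ℝ) < (univ.filter (fun y => Good G S z y)).card := by
          exact_mod_cast card_pos.mpr ⟨z, by simp [Good.refl]⟩
        have := Real.log_le_sub_one_of_pos (div_pos hpos hApos)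
        rw [Real.log_div hpos.ne' hApos.ne'] at this
        linarith
      refine le_trans (Finset.sum_le_sum fun S _ => Finset.sum_le_sum fun z _ => hl S z) ?_
      simp_rw [Finset.sum_add_distrib, ← Finset.sum_div]
      have h5 : ∑ S ∈ powersetCard t (univ : Finset Ω), ∑ _z ∈ Sᶜ, (Real.log (A t) - 1) =
          M * (Real.log (A t) - 1) := by
        have : ∀ S ∈ powersetCard t (univ : Finset Ω), ∑ _z ∈ Sᶜ, (Real.log (A t) - 1) =
            ((n - t : ℕ) : ℝ) * (Real.log (A t) - 1) := by
          intro S hS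
          rw [Finset.sum_const, hcard S hS, nsmul_eq_mul]
        rw [Finset.sum_congr rfl this, hM]
        simp [card_powersetCard, ← hn']
        ring
      rw [h5]
      have := (div_le_iff₀ hApos).mpr horb2
      linarith
    have e3 : ((n - t : ℕ) : ℝ) * a t ≤ M * Real.log (A t) + (t + 1) * a (t + 1) := by
      rw [e1]; simp only [a]; linarith
    have e4 : a t / n.choose t = (((n - t : ℕ) : ℝ) * a t) / M := by
      rw [hM]; field_simp
    have e5 : a (t + 1) / n.choose (t + 1) = ((t + 1) * a (t + 1)) / M := by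
      rw [hM']; field_simp
    rw [e4, e5, div_le_iff₀ hMpos, add_mul, div_mul_cancel₀ _ hMpos.ne']
    linarith
  have ind : ∀ k ≤ n, a 0 ≤ ∑ t ∈ range k, Real.log (A t) + a k / n.choose k := by
    intro k
    induction k with
    | zero => intro _; simp
    | succ k ih =>
      intro hk
      have := step k hk
      rw [Finset.sum_range_succ]
      linarith [ih (by omega)]
  have h0 : a 0 = Real.log (Nat.card G) := by
    simp only [a, powersetCard_zero, sum_singleton]
    have : fixS G (∅ : Finset Ω) = ⊤ := by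
      ext g; simp [mem_fixS]
    rw [this, Subgroup.card_top]
  have hN : a n = 0 := by
    simp only [a]
    refine Finset.sum_eq_zero fun S hS => ?_
    rw [mem_powersetCard] at hS
    have hS' : S = univ := eq_univ_of_card S hS.2
    have : fixS G S = ⊥ := by
      rw [eq_bot_iff]
      intro g hg
      rw [mem_fixS, hS'] at hg
      rw [Subgroup.mem_bot]
      exact FaithfulSMul.eq_of_smul_eq_smul (α := Ω) fun s => by rw [hg s (mem_univ _), one_smul]
    rw [this]; simp
  have := ind n le_rfl
  rw [h0, hN, zero_div, add_zero, ← Real.log_prod (fun t ht => (lt_of_lt_of_le one_pos (hA1 t (mem_range.mp ht))).ne')] at this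
  have hpos : 0 < ∏ t ∈ range n, A t :=
    Finset.prod_pos fun t ht => lt_of_lt_of_le one_pos (hA1 t (mem_range.mp ht))
  exact (Real.log_le_log_iff (by exact_mod_cast Nat.card_pos) hpos).mp this

open Classical in
omit [Finite G] in
/-- the recursion for the number of non-separating sets -/
theorem recur {x y : Ω} (hxy : x ≠ y) (e : ℕ → ℕ) (δ π P : ℕ → ℝ) (T : Finset Ω → Prop)
    (hT : ∀ t, (((powersetCard t (univ : Finset Ω)).filter T).card : ℝ) ≤ π t * (Fintype.card Ω - 2).choose t)
    (hE : ∀ S : Finset Ω, Good G S x y → ¬ T S → ∃ E : Finset Ω, x ∉ E ∧ y ∉ E ∧ e S.card ≤ E.card ∧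
      ∀ z ∈ E, ¬ Good G (insert z S) x y)
    (hδ0 : ∀ t, 0 ≤ δ t) (hδ1 : ∀ t, δ t ≤ 1)
    (hδ : ∀ t, δ t * ((Fintype.card Ω - 2 - t : ℕ) : ℝ) ≤ e t)
    (hP0 : 1 ≤ P 0) (hPn : ∀ t, 0 ≤ P t)
    (hP : ∀ t, t + 3 ≤ Fintype.card Ω → (1 - δ t) * P t + δ t * π t ≤ P (t + 1)) (t : ℕ) :
    (sig G x y t : ℝ) ≤ P t * (Fintype.card Ω - 2).choose t := by
  set n := Fintype.card Ω with hn'
  induction t with
  | zero =>
    have : sig G x y 0 ≤ 1 := by
      rw [sig, powersetCard_zero]
      exact le_trans (card_filter_le _ _) (by simp)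
    have h2 : (sig G x y 0 : ℝ) ≤ 1 := by exact_mod_cast this
    simp only [Nat.choose_zero_right, Nat.cast_one, mul_one]
    linarith
  | succ t ih =>
    set m : ℕ := n - 2 - t with hm
    have hd := dc t (fun S => if Good G S x y then (1 : ℝ) else 0)
    have hs1 : ∑ S ∈ powersetCard (t + 1) (univ : Finset Ω), (if Good G S x y then (1 : ℝ) else 0) =
        sig G x y (t + 1) := by
      rw [sig, Finset.card_filter, Nat.cast_sum]; simp
    have hs0 : ∑ S ∈ powersetCard t (univ : Finset Ω), (if Good G S x y then (1 : ℝ) else 0) =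
        sig G x y t := by
      rw [sig, Finset.card_filter, Nat.cast_sum]; simp
    have hT0 : ∑ S ∈ powersetCard t (univ : Finset Ω), (if T S then (1 : ℝ) else 0) =
        ((powersetCard t (univ : Finset Ω)).filter T).card := by
      rw [Finset.card_filter, Nat.cast_sum]; simp
    have key : ∀ S ∈ powersetCard t (univ : Finset Ω),
        ∑ z ∈ Sᶜ, (if Good G (insert z S) x y then (1 : ℝ) else 0) ≤
          m * ((1 - δ t) * (if Good G S x y then (1 : ℝ) else 0) + δ t * (if T S then (1 : ℝ) else 0)) := by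
      intro S hS
      rw [mem_powersetCard] at hS
      have hc : ∑ z ∈ Sᶜ, (if Good G (insert z S) x y then (1 : ℝ) else 0) =
          ((Sᶜ.filter (fun z => Good G (insert z S) x y)).card : ℝ) := by
        rw [Finset.card_filter, Nat.cast_sum]; simp
      rw [hc]
      have hm0 : (0 : ℝ) ≤ m := Nat.cast_nonneg _
      by_cases hg : Good G S x y
      · have gen : ∀ E : Finset Ω, x ∉ E → y ∉ E → (∀ z ∈ E, ¬ Good G (insert z S) x y) →
            (Sᶜ.filter (fun z => Good G (insert z S) x y)).card + E.card ≤ m := by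
          intro E hx hy hE
          have hsub : (Sᶜ.filter (fun z => Good G (insert z S) x y)) ∪ E ⊆ (Sᶜ.erase x).erase y := by
            intro z hz
            simp only [mem_union, mem_filter, mem_compl, mem_erase] at hz ⊢
            rcases hz with ⟨h1, h2⟩ | hz
            · refine ⟨?_, ?_, h1⟩
              · rintro rfl
                exact h2.symm.notMem hxy.symm (mem_insert_self _ _)
              · rintro rfl
                exact h2.notMem hxy (mem_insert_self _ _)
            · refine ⟨by rintro rfl; exact hy hz, by rintro rfl; exact hx hz, fun hzS => hE z hz ?_⟩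
              rw [insert_eq_of_mem hzS]; exact hg
          have hdis : Disjoint (Sᶜ.filter (fun z => Good G (insert z S) x y)) E := by
            rw [disjoint_left]
            intro z hz hzE
            exact hE z hzE (mem_filter.mp hz).2
          have := card_le_card hsub
          rw [card_union_of_disjoint hdis, card_erase_of_mem, card_erase_of_mem, card_compl, hS.2] at this
          · omega
          · simpa using hg.notMem hxy
          · simpa using ⟨hxy.symm, hg.symm.notMem hxy.symm⟩
        by_cases hTS : T S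
        · have := gen ∅ (by simp) (by simp) (by simp)
          simp only [card_empty, add_zero] at this
          have h2 : ((Sᶜ.filter (fun z => Good G (insert z S) x y)).card : ℝ) ≤ m := by exact_mod_cast this
          simp only [hg, hTS, if_true]
          linarith
        · obtain ⟨E, hx, hy, he, hE'⟩ := hE S hg hTS
          have := gen E hx hy hE'
          rw [hS.2] at he
          have h2 : ((Sᶜ.filter (fun z => Good G (insert z S) x y)).card : ℝ) + e t ≤ m := by
            exact_mod_cast (le_trans (Nat.add_le_add_left he _) this)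
          have h3 := hδ t
          simp only [hg, hTS, if_true, if_false]
          linarith
      · have : (Sᶜ.filter (fun z => Good G (insert z S) x y)) = ∅ := by
          rw [filter_eq_empty_iff]
          intro z _ h
          exact hg (h.mono (subset_insert _ _))
        rw [this]
        simp only [hg, if_false, card_empty, Nat.cast_zero, mul_zero, zero_add]
        refine mul_nonneg hm0 (mul_nonneg (hδ0 t) ?_)
        split_ifs <;> norm_num
    have h1 := Finset.sum_le_sum key
    rw [hd, hs1, ← Finset.mul_sum, Finset.sum_add_distrib, ← Finset.mul_sum, ← Finset.mul_sum, hs0, hT0] at h1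
    have hch : (((n - 2).choose (t + 1) : ℕ) : ℝ) * (t + 1) = (n - 2).choose t * m := by
      exact_mod_cast Nat.choose_succ_right_eq (n - 2) t
    have hm0 : (0 : ℝ) ≤ m := Nat.cast_nonneg _
    have ht1 : (0 : ℝ) < t + 1 := by positivity
    by_cases h3 : t + 3 ≤ n
    · have h4 := hP t h3
      have h5 : (1 - δ t) * (sig G x y t : ℝ) + δ t * ((powersetCard t (univ : Finset Ω)).filter T).card ≤
          P (t + 1) * (n - 2).choose t := by
        have a1 := mul_le_mul_of_nonneg_left ih (sub_nonneg.mpr (hδ1 t))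
        have a2 := mul_le_mul_of_nonneg_left (hT t) (hδ0 t)
        have a3 := mul_le_mul_of_nonneg_right h4 (Nat.cast_nonneg (α := ℝ) ((n - 2).choose t))
        nlinarith
      have h6 := mul_le_mul_of_nonneg_left h5 hm0
      have h7 : ((t : ℝ) + 1) * sig G x y (t + 1) ≤ (t + 1) * (P (t + 1) * (n - 2).choose (t + 1)) := by
        calc _ ≤ _ := h1
          _ ≤ _ := h6
          _ = _ := by linear_combination (-P (t + 1)) * hch
      exact le_of_mul_le_mul_left h7 ht1
    · have hm1 : m = 0 := by omega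
      rw [hm1] at h1
      simp only [Nat.cast_zero, zero_mul] at h1
      have h8 : (sig G x y (t + 1) : ℝ) ≤ 0 := by
        by_contra h
        push Not at h
        nlinarith
      exact le_trans h8 (mul_nonneg (hPn _) (Nat.cast_nonneg _))

/-- separation data: for every pair there is an exceptional family `T` of density `π` outside which
`e` further points separate the pair -/
def Sep (G : Type*) (Ω : Type*) [Fintype Ω] [DecidableEq Ω] [Group G] [MulAction G Ω] (e : ℕ → ℕ) (π : ℕ → ℝ) : Prop :=
  ∀ x y : Ω, x ≠ y → ∃ T : Finset (Finset Ω),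
    (∀ t, (((powersetCard t (univ : Finset Ω)).filter (fun S => S ∈ T)).card : ℝ) ≤ π t * (Fintype.card Ω - 2).choose t) ∧
    ∀ S : Finset Ω, Good G S x y → S ∉ T → ∃ E : Finset Ω, x ∉ E ∧ y ∉ E ∧ e S.card ≤ E.card ∧
      ∀ z ∈ E, ¬ Good G (insert z S) x y

theorem auto_lemmas_Ent3 : True := by
  have := @Sep.eq_1.{0,0}
  trivial

omit [Finite G] in
theorem Sep.mono {e e' : ℕ → ℕ} {π π' : ℕ → ℝ} (h : Sep G Ω e π) (he : ∀ t, e' t ≤ e t)
    (hπ : ∀ t, π t ≤ π' t) : Sep G Ω e' π' := by
  intro x y hxy
  obtain ⟨T, h1, h2⟩ := h x y hxy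
  refine ⟨T, fun t => le_trans (h1 t) (mul_le_mul_of_nonneg_right (hπ t) (Nat.cast_nonneg _)), fun S hS hT => ?_⟩
  obtain ⟨E, a, b, c, d⟩ := h2 S hS hT
  exact ⟨E, a, b, le_trans (he _) c, d⟩

theorem bound [FaithfulSMul G Ω] (hn : 2 ≤ Fintype.card Ω) {e : ℕ → ℕ} {π : ℕ → ℝ} (hS : Sep G Ω e π)
    (δ P A : ℕ → ℝ) (hδ0 : ∀ t, 0 ≤ δ t) (hδ1 : ∀ t, δ t ≤ 1)
    (hδ : ∀ t, δ t * ((Fintype.card Ω - 2 - t : ℕ) : ℝ) ≤ e t)
    (hP0 : 1 ≤ P 0) (hPn : ∀ t, 0 ≤ P t)
    (hP : ∀ t, t + 3 ≤ Fintype.card Ω → (1 - δ t) * P t + δ t * π t ≤ P (t + 1))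
    (hA : ∀ t < Fintype.card Ω, 1 + ((Fintype.card Ω - t - 1 : ℕ) : ℝ) * P t ≤ A t) :
    (Nat.card G : ℝ) ≤ ∏ t ∈ range (Fintype.card Ω), A t := by
  classical
  refine ent hn P A hPn (fun x y hxy t => ?_) hA
  obtain ⟨T, h1, h2⟩ := hS x y hxy
  refine recur hxy e δ π P (fun S => S ∈ T) (fun t => ?_) h2 hδ0 hδ1 hδ hP0 hPn hP t
  convert h1 t

end H96.PS
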