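import Cfsg.Agent.Lib.Ent96.Uni

/-! Doubly transitive groups with imprimitive point stabiliser: separation data. -/

set_option autoImplicit false
set_option linter.unusedSectionVars false

namespace H96.PS

open MulAction Finset
open scoped Pointwise

variable {G Ω : Type*} [Group G] [MulAction G Ω]

theorem exists_block (h2 : IsMultiplyPretransitive G Ω 2) (a0 : Ω)
    (hp : ¬ IsPreprimitive (stabilizer G a0) (SubMulAction.ofStabilizer G a0)) :
    ∃ (B : Set Ω) (u v w : Ω), a0 ∉ B ∧ u ∈ B ∧ v ∈ B ∧ u ≠ v ∧ w ≠ a0 ∧ w ∉ B ∧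
      ∀ h : G, h • a0 = a0 → ∀ x ∈ B, h • x ∈ B → ∀ y ∈ B, h • y ∈ B := by
  have := isPretransitive_of_is_two_pretransitive (G := G) (α := Ω)
  have h1 : IsPretransitive (stabilizer G a0) (SubMulAction.ofStabilizer G a0) :=
    is_one_pretransitive_iff.mp (SubMulAction.ofStabilizer.isMultiplyPretransitive.mp h2)
  have : ∃ B : Set (SubMulAction.ofStabilizer G a0), IsBlock (stabilizer G a0) B ∧ ¬ IsTrivialBlock B := by
    by_contra h
    push Not at h
    exact hp ⟨fun {B} hB => h B hB⟩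
  obtain ⟨B, hB, hT⟩ := this
  rw [IsTrivialBlock, not_or, Set.not_subsingleton_iff] at hT
  obtain ⟨⟨u, hu, v, hv, huv⟩, hw⟩ := hT
  obtain ⟨w, hw⟩ := (Set.ne_univ_iff_exists_notMem B).mp hw
  refine ⟨Subtype.val '' B, u, v, w, ?_, ⟨u, hu, rfl⟩, ⟨v, hv, rfl⟩, fun h => huv (Subtype.ext h),
    (SubMulAction.mem_ofStabilizer_iff G a0).mp w.2, ?_, ?_⟩
  · rintro ⟨x, _, hx⟩
    exact (SubMulAction.mem_ofStabilizer_iff G a0).mp x.2 hx
  · rintro ⟨x, hx, h⟩
    exact hw (Subtype.ext h ▸ hx)
  · rintro h hh _ ⟨x, hx, rfl⟩ ⟨x', hx', e⟩ _ ⟨y, hy, rfl⟩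
    let k : stabilizer G a0 := ⟨h, hh⟩
    have e' : k • x = x' := Subtype.ext e.symm
    have := isBlock_iff_smul_eq_of_mem.mp hB (g := k) hx (e' ▸ hx')
    have hy' : k • y ∈ B := by
      rw [← this]; exact Set.smul_mem_smul_set hy
    exact ⟨k • y, hy', rfl⟩

variable [Fintype Ω] [DecidableEq Ω]

theorem sep_imp (h2 : IsMultiplyPretransitive G Ω 2) (a0 : Ω)
    (hp : ¬ IsPreprimitive (stabilizer G a0) (SubMulAction.ofStabilizer G a0)) :
    ∃ β : ℕ, 1 ≤ β ∧ 2 * β + 3 ≤ Fintype.card Ω ∧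
      Sep G Ω (fun t => max (t - β) (2 * β)) (fun t => (β.choose t : ℝ) / (Fintype.card Ω - 2).choose t) := by
  classical
  obtain ⟨B, u, v, w, hB0, hu, hv, huv, hw0, hw, hB⟩ := exists_block h2 a0 hp
  have h2' : ∀ {a b c d : Ω}, a ≠ b → c ≠ d → ∃ g : G, g • a = c ∧ g • b = d :=
    fun h h' => is_two_pretransitive_iff.mp h2 h h'
  set n := Fintype.card Ω with hn
  let E : Ω → Ω → Ω → Prop := fun a x y => ∃ g : G, g • a = a0 ∧ g • x ∈ B ∧ g • y ∈ B
  have hinv : ∀ (g : G) a x y, E a x y → E (g • a) (g • x) (g • y) := by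
    rintro g a x y ⟨h, h1, h3, h4⟩
    exact ⟨h * g⁻¹, by simp [mul_smul, h1], by simp [mul_smul, h3], by simp [mul_smul, h4]⟩
  have hsym : ∀ a x y, E a x y → E a y x := fun a x y ⟨h, h1, h3, h4⟩ => ⟨h, h1, h4, h3⟩
  have htr : ∀ a x y z, E a x y → E a y z → E a x z := by
    rintro a x y z ⟨g, g1, g2, g3⟩ ⟨h, h1, h3, h4⟩
    refine ⟨h, h1, ?_, h4⟩
    have := hB (h * g⁻¹) (by rw [← g1, mul_smul, inv_smul_smul, h1, g1]) _ g3 (by simpa [mul_smul] using h3) _ g2
    simpa [mul_smul] using this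
  have hne : ∀ a x y, E a x y → x ≠ a := by
    rintro a x y ⟨g, g1, g2, _⟩ rfl
    exact hB0 (g1 ▸ g2)
  have hua : a0 ≠ u := fun h => hB0 (h ▸ hu)
  have hrefl : ∀ a x, x ≠ a → E a x x := by
    intro a x hx
    obtain ⟨g, g1, g2⟩ := h2' hx.symm hua
    exact ⟨g, g1, g2 ▸ hu, g2 ▸ hu⟩
  let cls : Ω → Ω → Finset Ω := fun a x => univ.filter (E a x)
  have hmc : ∀ a x y, y ∈ cls a x ↔ E a x y := fun a x y => by simp [cls]
  set b := (cls a0 u).card with hb
  have hcls : ∀ a x, x ≠ a → (cls a x).card = b := by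
    intro a x hx
    obtain ⟨g, rfl, rfl⟩ := h2' hua hx.symm
    rw [hb]
    convert card_inv E hinv g a0 u
  have hb2 : 2 ≤ b := by
    have : ({u, v} : Finset Ω) ⊆ cls a0 u := by
      intro z hz
      simp only [mem_insert, mem_singleton] at hz
      rw [hmc]
      rcases hz with rfl | rfl
      · exact hrefl _ _ hua.symm
      · exact ⟨1, one_smul _ _, by simpa using hu, by simpa using hv⟩
    have h3 := card_le_card this
    rwa [card_pair huv] at h3
  have hdisj : ∀ a x y, ¬ E a x y → Disjoint (cls a x) (cls a y) := by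
    intro a x y h
    rw [disjoint_left]
    intro z h1 h3
    rw [hmc] at h1 h3
    exact h (htr _ _ _ _ h1 (hsym _ _ _ h3))
  have hbn : 2 * b ≤ n - 1 := by
    have hE : ¬ E a0 u w := by
      rintro ⟨g, g1, g2, g3⟩
      have := hB g⁻¹ (by rw [inv_smul_eq_iff, g1]) _ g2 (by simpa using hu) _ g3
      exact hw (by simpa using this)
    have hsub : cls a0 u ∪ cls a0 w ⊆ univ.erase a0 := by
      intro z hz
      simp only [mem_union, hmc, mem_erase, mem_univ, and_true] at hz ⊢
      rcases hz with h | h <;> exact hne _ _ _ (hsym _ _ _ h)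
    have := card_le_card hsub
    rw [card_union_of_disjoint (hdisj _ _ _ hE), hcls _ _ hw0, card_erase_of_mem (mem_univ _), card_univ] at this
    omega
  let T : Ω → Ω → Finset Ω := fun x y => univ.filter (fun a => E a x y)
  have hmT : ∀ x y a, a ∈ T x y ↔ E a x y := fun x y a => by simp [T]
  have hT0 : ∀ x y, x ≠ y → (T x y).card = (T u v).card := by
    intro x y hxy
    obtain ⟨g, rfl, rfl⟩ := h2' huv hxy
    convert card_inv (fun x y a => E a x y) (fun g x y a h => hinv g a x y h) g u v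
  have hce : ∀ a x, x ≠ a → ((cls a x).erase x).card = b - 1 := by
    intro a x hx
    rw [card_erase_of_mem ((hmc _ _ _).mpr (hrefl _ _ hx)), hcls _ _ hx]
  have hT : ∀ x y, x ≠ y → (T x y).card = b - 1 := by
    intro x y hxy
    rw [hT0 x y hxy]
    have e1 : ∑ a ∈ univ.erase u, ∑ _y ∈ (cls a u).erase u, 1 = ∑ y ∈ univ.erase u, ∑ _a ∈ T u y, 1 := by
      apply Finset.sum_comm'
      intro a y
      simp only [mem_erase, mem_univ, and_true, hmc, hmT]
      constructor
      · rintro ⟨_, h3, h4⟩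
        exact ⟨h4, h3⟩
      · rintro ⟨h3, h4⟩
        exact ⟨(hne _ _ _ h3).symm, h4, h3⟩
    simp only [sum_const, smul_eq_mul, mul_one] at e1
    rw [Finset.sum_congr rfl (fun a ha => hce a u (ne_of_mem_erase ha).symm),
      Finset.sum_congr rfl (fun y hy => hT0 u y (ne_of_mem_erase hy).symm), sum_const, sum_const,
      card_erase_of_mem (mem_univ _), card_univ, smul_eq_mul, smul_eq_mul] at e1
    exact (Nat.eq_of_mul_eq_mul_left (by omega) e1).symm
  refine ⟨b - 1, by omega, by omega, fun x y hxy => ⟨(T x y).powerset, fun t => ?_, fun S hS hST => ?_⟩⟩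
  · have : (powersetCard t (univ : Finset Ω)).filter (fun S => S ∈ (T x y).powerset) = powersetCard t (T x y) := by
      ext S
      simp only [mem_filter, mem_powersetCard, subset_univ, true_and, mem_powerset]
      tauto
    rw [this, card_powersetCard, hT x y hxy]
    by_cases h0 : (n - 2).choose t = 0
    · have : (b - 1).choose t = 0 := by
        rw [Nat.choose_eq_zero_iff] at h0 ⊢
        omega
      simp [this]
    · rw [div_mul_cancel₀ _ (by exact_mod_cast h0)]
  · have hxS := hS.notMem hxy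
    have hyS := hS.symm.notMem hxy.symm
    have hsepx : ∀ a ∈ S, ¬ E a x y → ∀ z, E a x z → ¬ Good G (insert z S) x y := by
      rintro a ha hE z hz ⟨g, g1, rfl⟩
      have := hinv g _ _ _ hz
      rw [g1 a (mem_insert_of_mem ha), g1 z (mem_insert_self _ _)] at this
      exact hE (htr _ _ _ _ hz (hsym _ _ _ this))
    have hsepy : ∀ a ∈ S, ¬ E a x y → ∀ z, E a y z → ¬ Good G (insert z S) x y := by
      intro a ha hE z hz hg
      obtain ⟨g, g1, g2⟩ := hg.symm
      have := hinv g _ _ _ hz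
      rw [g1 a (mem_insert_of_mem ha), g1 z (mem_insert_self _ _), g2] at this
      exact hE (htr _ _ _ _ this (hsym _ _ _ hz))
    rcases le_total (S.card - (b - 1)) (2 * (b - 1)) with hm | hm
    · rw [mem_powerset, not_subset] at hST
      obtain ⟨a, ha, haT⟩ := hST
      rw [hmT] at haT
      have hxa : x ≠ a := fun h => hxS (h ▸ ha)
      have hya : y ≠ a := fun h => hyS (h ▸ ha)
      refine ⟨(cls a x).erase x ∪ (cls a y).erase y, ?_, ?_, ?_, ?_⟩
      · simp only [mem_union, mem_erase, hmc, not_or]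
        exact ⟨fun h => h.1 rfl, fun h => haT (hsym _ _ _ h.2)⟩
      · simp only [mem_union, mem_erase, hmc, not_or]
        exact ⟨fun h => haT h.2, fun h => h.1 rfl⟩
      · rw [card_union_of_disjoint ((hdisj _ _ _ haT).mono (erase_subset _ _) (erase_subset _ _)),
          hce _ _ hxa, hce _ _ hya]
        show max _ _ ≤ _
        omega
      · intro z hz
        simp only [mem_union, mem_erase, hmc] at hz
        rcases hz with h | h
        · exact hsepx a ha haT z h.2
        · exact hsepy a ha haT z h.2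
    · let Nx := univ.filter (fun z => z ≠ x ∧ ∃ a ∈ S \ T x y, E a x z)
      have hmN : ∀ z, z ∈ Nx ↔ z ≠ x ∧ ∃ a ∈ S \ T x y, E a x z := fun z => by simp only [Nx, mem_filter, mem_univ, true_and]
      refine ⟨Nx, ?_, ?_, ?_, ?_⟩
      · rw [hmN]; exact fun h => h.1 rfl
      · rw [hmN]
        rintro ⟨_, a, ha, h⟩
        rw [mem_sdiff, hmT] at ha
        exact ha.2 h
      · have e1 : ∑ a ∈ S \ T x y, ∑ _z ∈ (cls a x).erase x, 1 = ∑ z ∈ Nx, ∑ _a ∈ (S \ T x y) ∩ T x z, 1 := by
          apply Finset.sum_comm'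
          intro a z
          simp only [mem_erase, hmc, hmN, mem_inter, hmT]
          constructor
          · rintro ⟨h1, h3, h4⟩
            exact ⟨⟨h1, h4⟩, h3, a, h1, h4⟩
          · rintro ⟨⟨h1, h4⟩, h3, _⟩
            exact ⟨h1, h3, h4⟩
        simp only [sum_const, smul_eq_mul, mul_one] at e1
        have e2 : ∀ a ∈ S \ T x y, ((cls a x).erase x).card = b - 1 := fun a ha =>
          hce a x (fun h => hxS (h ▸ (mem_sdiff.mp ha).1))
        have e3 : ∀ z ∈ Nx, ((S \ T x y) ∩ T x z).card ≤ b - 1 := fun z hz => by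
          rw [← hT x z ((hmN z).mp hz).1.symm]
          exact card_le_card inter_subset_right
        have e4 := Finset.sum_le_sum e3
        rw [← e1, Finset.sum_congr rfl e2, sum_const, sum_const, smul_eq_mul, smul_eq_mul] at e4
        have e5 := Nat.le_of_mul_le_mul_right e4 (by omega)
        have e6 := le_card_sdiff (T x y) S
        rw [hT x y hxy] at e6
        show max _ _ ≤ _
        omega
      · intro z hz
        obtain ⟨_, a, ha, h⟩ := (hmN z).mp hz
        rw [mem_sdiff, hmT] at ha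
        exact hsepx a ha.1 ha.2 z h

end H96.PS
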