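import Cfsg.Agent.Lib.Ent96.Ent

/-! Miller's bound for the degree of transitivity. -/

set_option autoImplicit false
set_option linter.unusedSectionVars false
set_option linter.unusedSimpArgs false

namespace H96.PS

open MulAction Finset Equiv Equiv.Perm

section
variable {K α : Type*} [Group K] [MulAction K α] [Finite K]

/-- commutators of elements normalising `Q` and an orbit of length `p` have trivial `p`-th power on it -/
theorem comm_pow {p : ℕ} [Fact p.Prime] (Q : Subgroup K) (hQ : IsPGroup p Q) (z : α)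
    (hz : (stabilizer Q z).index = p) (x y : K) (hx : x ∈ Subgroup.normalizer (Q : Set K))
    (hy : y ∈ Subgroup.normalizer (Q : Set K))
    (hx' : ∀ w ∈ orbit Q z, x • w ∈ orbit Q z ∧ x⁻¹ • w ∈ orbit Q z)
    (hy' : ∀ w ∈ orbit Q z, y • w ∈ orbit Q z ∧ y⁻¹ • w ∈ orbit Q z) :
    ((y * x)⁻¹ * (x * y)) ^ p • z = z := by
  have hp : p.Prime := Fact.out
  obtain ⟨k, hk⟩ := IsPGroup.iff_card.mp hQ
  have hk0 : k ≠ 0 := by
    rintro rfl
    have := (stabilizer Q z).index_dvd_card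
    rw [hz, hk, pow_zero, Nat.dvd_one] at this
    exact hp.one_lt.ne' this
  have hN : (stabilizer Q z).Normal :=
    Subgroup.normal_of_index_eq_minFac_card (by rw [hz, hk, hp.pow_minFac hk0])
  have hfix : ∀ v ∈ stabilizer Q z, ∀ w ∈ orbit Q z, v • w = w := by
    rintro v hv _ ⟨t, rfl⟩
    have := hN.conj_mem v hv t⁻¹
    rw [mem_stabilizer_iff, inv_inv, mul_smul, mul_smul, inv_smul_eq_iff] at this
    exact this
  obtain ⟨u, hu⟩ : ∃ u : Q, u ∉ stabilizer Q z := by
    by_contra h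
    push Not at h
    have : stabilizer Q z = ⊤ := by
      rw [eq_top_iff]; exact fun u _ => h u
    rw [this, Subgroup.index_top] at hz
    exact hp.one_lt.ne hz
  have hb : ∀ v : Q, ∃ i : ℕ, ∀ w ∈ orbit Q z, v • w = (u ^ i) • w := by
    intro v
    obtain ⟨i, hi⟩ := mem_powers_of_prime_card (G := Q ⧸ stabilizer Q z) (p := p) hz
      (g := (u : Q ⧸ stabilizer Q z)) (g' := (v : Q ⧸ stabilizer Q z))
      (by rwa [Ne, QuotientGroup.eq_one_iff])
    refine ⟨i, fun w hw => ?_⟩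
    simp only at hi
    rw [← QuotientGroup.mk_pow, QuotientGroup.eq] at hi
    have := hfix _ hi w hw
    rwa [mul_smul, inv_smul_eq_iff] at this
  have hd : ∀ w ∈ orbit Q z, (u ^ p) • w = w := by
    have := (stabilizer Q z).pow_index_mem u
    rw [hz] at this
    exact hfix _ this
  have hmem : ∀ (v : Q), ∀ w ∈ orbit Q z, (v : K) • w ∈ orbit Q z := fun v w hw => mem_orbit_of_mem_orbit v hw
  set U : K := (u : K) with hU
  have hmemU : ∀ i : ℕ, ∀ w ∈ orbit Q z, U ^ i • w ∈ orbit Q z := fun i w hw => hmem (u ^ i) w hw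
  have hconj : ∀ a ∈ Subgroup.normalizer (Q : Set K), ∃ i : ℕ, ∀ j : ℕ, ∀ w ∈ orbit Q z,
      a • U ^ j • a⁻¹ • w = U ^ (i * j) • w := by
    intro a ha
    have h1 : a * U * a⁻¹ ∈ Q := (Subgroup.mem_normalizer_iff.mp ha U).mp u.2
    obtain ⟨i, hi⟩ := hb ⟨_, h1⟩
    refine ⟨i, fun j => ?_⟩
    induction j with
    | zero => intro w _; simp
    | succ j ih =>
      intro w hw
      have e1 : a • U ^ (j + 1) • a⁻¹ • w = (a * U * a⁻¹) • (a • U ^ j • a⁻¹ • w) := by
        simp [pow_succ', mul_smul]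
      rw [e1, ih w hw]
      have e2 := hi _ (hmemU (i * j) w hw)
      refine e2.trans ?_
      show U ^ i • U ^ (i * j) • w = _
      rw [← mul_smul, ← pow_add]; congr 2; ring
  obtain ⟨a, ha⟩ := hconj x hx
  obtain ⟨b, hb'⟩ := hconj y hy
  set c := (y * x)⁻¹ * (x * y) with hc
  have hcm : ∀ w ∈ orbit Q z, c • w ∈ orbit Q z := by
    intro w hw
    rw [hc, mul_inv_rev, mul_smul, mul_smul, mul_smul]
    exact (hx' _ (hy' _ (hx' _ (hy' _ hw).1).1).2).2
  have hcu : ∀ w ∈ orbit Q z, c • U • w = U • c • w := by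
    intro w hw
    set w' := x • y • w with hw'
    have hw2 : w' ∈ orbit Q z := (hx' _ (hy' _ hw).1).1
    have e1 : x • y • U • w = U ^ (a * b) • w' := by
      have h1 := hb' 1 (y • w) (hy' _ hw).1
      rw [inv_smul_smul, pow_one, mul_one] at h1
      rw [h1, ← ha b w' hw2, hw', inv_smul_smul]
    have e2 : y • x • U • x⁻¹ • y⁻¹ • w' = U ^ (a * b) • w' := by
      have h1 := ha 1 (y⁻¹ • w') (hy' _ hw2).2
      rw [pow_one, mul_one] at h1
      rw [h1, hb' a w' hw2, mul_comm]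
    rw [hc, mul_inv_rev]
    simp only [mul_smul]
    rw [e1, ← e2, inv_smul_smul, inv_smul_smul]
  clear_value c
  have hcui : ∀ i : ℕ, ∀ w ∈ orbit Q z, c • U ^ i • w = U ^ i • c • w := by
    intro i
    induction i with
    | zero => intro w _; simp
    | succ i ih =>
      intro w hw
      rw [pow_succ', mul_smul, mul_smul, hcu _ (hmemU i w hw), ih w hw]
  obtain ⟨t, ht⟩ := hcm z (mem_orbit_self z)
  obtain ⟨j, hj⟩ := hb t
  have hcz : c • z = U ^ j • z := by
    rw [← ht]; exact hj z (mem_orbit_self z)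
  have hpow : ∀ m : ℕ, c ^ m • z = U ^ (j * m) • z := by
    intro m
    induction m with
    | zero => simp
    | succ m ih =>
      rw [pow_succ', mul_smul, ih, hcui _ _ (mem_orbit_self z), hcz, ← mul_smul, ← pow_add]
      congr 2
  rw [hpow, mul_comm, pow_mul]
  have : ∀ m : ℕ, (U ^ p) ^ m • z = z := by
    intro m
    induction m with
    | zero => simp
    | succ m ih => rw [pow_succ', mul_smul, ih]; exact hd z (mem_orbit_self z)
  exact this j

end

theorem four_pts {β : Type*} [DecidableEq β] {a b c d : β} (ab : a ≠ b) (ac : a ≠ c) (ad : a ≠ d) (bc : b ≠ c)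
    (bd : b ≠ d) (cd : c ≠ d) {p : ℕ} (hp : Odd p) :
    ((((swap a b * swap a d) * (swap a b * swap a c))⁻¹ * ((swap a b * swap a c) * (swap a b * swap a d))) ^ p) a ≠ a := by
  set w := ((swap a b * swap a d) * (swap a b * swap a c))⁻¹ * ((swap a b * swap a c) * (swap a b * swap a d)) with hw
  have h1 : w a = b := by
    simp [hw, swap_apply_def, ab, ac, ad, bc, bd, cd, ab.symm, ac.symm, ad.symm, bc.symm, bd.symm, cd.symm]
  have h2 : w b = a := by
    simp [hw, swap_apply_def, ab, ac, ad, bc, bd, cd, ab.symm, ac.symm, ad.symm, bc.symm, bd.symm, cd.symm]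
  obtain ⟨m, rfl⟩ := hp
  have h3 : ∀ m : ℕ, (w ^ (2 * m)) a = a := by
    intro m
    induction m with
    | zero => simp
    | succ m ih =>
      rw [show 2 * (m + 1) = 2 * m + 1 + 1 by ring, pow_succ, pow_succ, Perm.mul_apply, Perm.mul_apply, h1, h2, ih]
  rw [pow_succ', Perm.mul_apply, h3, h1]
  exact ab.symm

variable {α : Type*} [Fintype α] [DecidableEq α]

theorem mil_core {K : Type*} [Group K] [MulAction K α] [Finite K] (Δ : Finset α)
    (hΔ : ∀ (k : K) s, k • s ∈ Δ ↔ s ∈ Δ) (hsurj : ∀ σ : Perm Δ, ∃ k : K, ∀ s : Δ, k • (s : α) = σ s)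
    (htr : ∀ z ∉ Δ, ∀ w ∉ Δ, ∃ k ∈ fixS K Δ, k • z = w) {p q l : ℕ} (hp : p.Prime) (hp2 : Odd p)
    (hqp : q < p) (hl : l.Prime) (hl3 : 3 ≤ l) (hql : q < l) (hlr : l ≤ Δ.card) (hr : 4 ≤ Δ.card)
    (hn : Fintype.card α = q * p + Δ.card) :
    ∃ k : K, (∀ z ∉ Δ, k • z = z) ∧ ∃ s ∈ Δ, k • s ≠ s := by
  classical
  have := Fact.mk hp
  have := Fact.mk hl
  let ρ : K →* Perm Δ :=
    { toFun := fun k => (MulAction.toPerm k : Perm α).subtypePerm (fun s => hΔ k s)
      map_one' := by ext s; simp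
      map_mul' := fun a b => Equiv.ext fun s => Subtype.ext (mul_smul a b (s : α)) }
  have hρ : ∀ k (s : Δ), (ρ k s : α) = k • (s : α) := fun k s => rfl
  have hN : (fixS K Δ).Normal := ⟨fun n hn g => by
    rw [mem_fixS] at hn ⊢
    intro s hs
    rw [mul_smul, mul_smul, hn _ ((hΔ _ _).mpr hs), smul_inv_smul]⟩
  obtain ⟨P⟩ : Nonempty (Sylow p (fixS K Δ)) := inferInstance
  set Q : Subgroup K := (P : Subgroup (fixS K Δ)).map (fixS K Δ).subtype with hQ
  have hQp : IsPGroup p Q := P.isPGroup'.map _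
  have hfr : Subgroup.normalizer (Q : Set K) ⊔ fixS K Δ = ⊤ := P.normalizer_sup_eq_top
  set M := Subgroup.normalizer (Q : Set K) with hM
  have hlift : ∀ σ : Perm Δ, ∃ a ∈ M, ρ a = σ := by
    intro σ
    obtain ⟨k, hk⟩ := hsurj σ
    obtain ⟨a, ha, h, hh, rfl⟩ := Subgroup.mem_sup_of_normal_right.mp (show k ∈ M ⊔ fixS K Δ by rw [hfr]; trivial)
    refine ⟨a, ha, ?_⟩
    ext s
    rw [hρ, ← hk s, mul_smul, mem_fixS.mp hh _ s.2]
  have hcompl : (Δᶜ).card = q * p := by rw [card_compl, hn]; omega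
  have horbΔ : ∀ z ∉ Δ, ∀ w ∈ orbit Q z, w ∉ Δ := by
    rintro z hz _ ⟨t, rfl⟩
    exact fun h => hz ((hΔ (t : K) z).mp h)
  have hidx : ∀ z ∉ Δ, (stabilizer Q z).index = p := by
    intro z hz
    obtain ⟨k, hk⟩ := hQp.index (stabilizer Q z)
    have h1 : (stabilizer Q z).index ≤ q * p := by
      rw [index_stabilizer, ← hcompl, ← Set.ncard_coe_finset]
      exact Set.ncard_le_ncard (fun w hw => by simpa using horbΔ z hz w hw)
    have h2 : k < 2 := by
      rw [hk] at h1
      have : p ^ k < p ^ 2 := by nlinarith [hp.pos]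
      exact (Nat.pow_lt_pow_iff_right hp.one_lt).mp this
    have h3 : k ≠ 0 := by
      rintro rfl
      rw [pow_zero, Subgroup.index_eq_one] at hk
      have h4 : (P : Subgroup (fixS K Δ)) ≤ stabilizer (fixS K Δ) z := by
        intro t ht
        have : (⟨t, Subgroup.mem_map_of_mem _ ht⟩ : Q) ∈ stabilizer Q z := by rw [hk]; trivial
        exact this
      have h5 := Subgroup.index_dvd_of_le h4
      have h6 : (stabilizer (fixS K Δ) z).index = q * p := by
        rw [index_stabilizer, ← hcompl, ← Set.ncard_coe_finset]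
        congr 1
        ext w
        simp only [coe_compl, Set.mem_compl_iff, mem_coe]
        constructor
        · rintro ⟨t, rfl⟩
          exact fun h => hz ((hΔ (t : K) z).mp h)
        · intro hw
          obtain ⟨k, hk1, hk2⟩ := htr z hz w hw
          exact ⟨⟨k, hk1⟩, hk2⟩
      rw [h6] at h5
      exact P.not_dvd_index (dvd_trans (Dvd.intro_left _ rfl) h5)
    rw [hk, show k = 1 by omega, pow_one]
  have hMr : ∀ a ∈ M, ∀ z : α, ∀ w ∈ orbit Q z, a • w ∈ orbit Q (a • z) := by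
    rintro a ha z _ ⟨t, rfl⟩
    refine ⟨⟨a * t * a⁻¹, (Subgroup.mem_normalizer_iff.mp ha _).mp t.2⟩, ?_⟩
    show (a * t * a⁻¹) • a • z = a • (t : K) • z
    simp [mul_smul]
  have hotr : ∀ {z w v : α}, w ∈ orbit Q z → v ∈ orbit Q w → v ∈ orbit Q z := by
    rintro z w _ hw ⟨t, rfl⟩
    exact mem_orbit_of_mem_orbit t hw
  let M0 : Subgroup K :=
    { carrier := {a | a ∈ M ∧ ∀ z ∉ Δ, a • z ∈ orbit Q z}
      one_mem' := ⟨M.one_mem, fun z _ => by rw [one_smul]; exact mem_orbit_self z⟩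
      mul_mem' := fun {a b} ha hb => ⟨M.mul_mem ha.1 hb.1, fun z hz => by
        rw [mul_smul]
        exact hotr (hb.2 z hz) (ha.2 _ (fun h => hz ((hΔ _ _).mp h)))⟩
      inv_mem' := fun {a} ha => ⟨M.inv_mem ha.1, fun z hz => by
        have := ha.2 (a⁻¹ • z) (fun h => hz ((hΔ _ _).mp h))
        rw [smul_inv_smul] at this
        exact mem_orbit_symm.mp this⟩ }
  have hM0c : ∀ a ∈ M, ∀ x ∈ M0, a * x * a⁻¹ ∈ M0 := by
    intro a ha x hx
    refine ⟨M.mul_mem (M.mul_mem ha hx.1) (M.inv_mem ha), fun z hz => ?_⟩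
    have := hMr a ha _ _ (hx.2 (a⁻¹ • z) (fun h => hz ((hΔ _ _).mp h)))
    rwa [smul_inv_smul, ← mul_smul, ← mul_smul] at this
  have hfac : ∀ a ∈ M, a ^ q.factorial ∈ M0 := by
    intro a ha
    refine ⟨M.pow_mem ha _, fun z hz => ?_⟩
    have hz' : ∀ i : ℕ, a ^ i • z ∉ Δ := fun i h => hz ((hΔ _ _).mp h)
    have h1 : ∃ i j, i < j ∧ j ≤ q ∧ a ^ j • z ∈ orbit Q (a ^ i • z) := by
      by_contra hc
      push Not at hc
      let O : ℕ → Finset α := fun i => univ.filter (fun w => w ∈ orbit Q (a ^ i • z))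
      have hO : ∀ i, (O i).card = p := by
        intro i
        rw [← hidx _ (hz' i), index_stabilizer, ← Set.ncard_coe_finset]
        congr 1
        ext w; simp [O]
      have hd : ∀ i j, i < j → j ≤ q → Disjoint (O i) (O j) := by
        intro i j hij hj
        rw [disjoint_left]
        intro w h1 h2
        simp only [O, mem_filter, mem_univ, true_and] at h1 h2
        exact hc i j hij hj (hotr h1 (mem_orbit_symm.mp h2))
      have h2 : ((range (q + 1)).biUnion O).card = ∑ i ∈ range (q + 1), (O i).card := by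
        apply card_biUnion
        intro i hi j hj hij
        simp only [coe_range, Set.mem_Iio] at hi hj
        rcases lt_or_gt_of_ne hij with h | h
        · exact hd i j h (by omega)
        · exact (hd j i h (by omega)).symm
      have h3 : (range (q + 1)).biUnion O ⊆ Δᶜ := by
        intro w hw
        simp only [mem_biUnion, O, mem_filter, mem_univ, true_and] at hw
        obtain ⟨i, _, hw⟩ := hw
        exact mem_compl.mpr (horbΔ _ (hz' i) w hw)
      have h4 := card_le_card h3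
      simp only [h2, hO, sum_const, card_range, smul_eq_mul, hcompl] at h4
      nlinarith [hp.pos]
    obtain ⟨i, j, hij, hj, h⟩ := h1
    have h5 : a ^ (j - i) • z ∈ orbit Q z := by
      have := hMr _ (M.inv_mem (M.pow_mem ha i)) _ _ h
      rw [inv_smul_smul, ← mul_smul] at this
      have e : (a ^ i)⁻¹ * a ^ j = a ^ (j - i) := by
        rw [inv_mul_eq_iff_eq_mul, ← pow_add]; congr 1; omega
      rwa [e] at this
    obtain ⟨c, hc⟩ : (j - i) ∣ q.factorial := Nat.dvd_factorial (by omega) (by omega)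
    rw [hc, pow_mul]
    clear hc
    induction c with
    | zero => rw [pow_zero, one_smul]; exact mem_orbit_self z
    | succ c ih =>
      rw [pow_succ', mul_smul]
      exact hotr h5 (hMr _ (M.pow_mem ha _) _ _ ih)
  let R : Subgroup (Perm Δ) := M0.map ρ
  have hRn : R.Normal := ⟨by
    rintro _ ⟨x, hx, rfl⟩ σ
    obtain ⟨a, ha, rfl⟩ := hlift σ
    exact ⟨a * x * a⁻¹, hM0c a ha x hx, by simp⟩⟩
  obtain ⟨γ, hγ⟩ := exists_prime_orderOf_dvd_card' (G := Perm Δ) l (by
    rw [Nat.card_perm, Nat.card_eq_fintype_card, Fintype.card_coe]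
    exact Nat.dvd_factorial hl.pos hlr)
  obtain ⟨a, ha, rfl⟩ := hlift γ
  set η := ρ a ^ q.factorial with hη
  have hηR : η ∈ R := ⟨_, hfac a ha, by simp [hη]⟩
  have hcop : (orderOf (ρ a)).Coprime q.factorial := by
    rw [hγ, hl.coprime_iff_not_dvd, hl.dvd_factorial]; omega
  have hηo : orderOf η = l := by rw [hη, hcop.orderOf_pow, hγ]
  obtain ⟨s, hs⟩ : ∃ s, η s ≠ s := by
    by_contra h
    push Not at h
    have : η = 1 := Equiv.ext h
    rw [this, orderOf_one] at hηo
    omega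
  have hs2 : η (η s) ≠ s := by
    intro h
    obtain ⟨m, hm⟩ := hl.odd_of_ne_two (by omega)
    have h3 : ∀ m : ℕ, (η ^ (2 * m)) s = s := by
      intro m
      induction m with
      | zero => simp
      | succ m ih =>
        rw [show 2 * (m + 1) = 2 * m + 1 + 1 by ring, pow_succ, pow_succ, Perm.mul_apply, Perm.mul_apply, h, ih]
    have h4 := pow_orderOf_eq_one η
    rw [hηo, hm, pow_succ'] at h4
    have := congrArg (fun f : Perm Δ => f s) h4
    simp only [Perm.mul_apply, h3, Perm.one_apply] at this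
    exact hs this
  have h3c : ∀ τ : Perm Δ, τ.IsThreeCycle → τ ∈ R := by
    have h1 : η * (swap s (η s) * η⁻¹ * (swap s (η s))⁻¹) ∈ R := R.mul_mem hηR (hRn.conj_mem _ (R.inv_mem hηR) _)
    have h2 : η * (swap s (η s) * η⁻¹ * (swap s (η s))⁻¹) = swap (η s) (η (η s)) * swap (η s) s := by
      rw [swap_inv, ← mul_assoc, ← mul_assoc, ← swap_apply_apply, swap_comm s]
    rw [h2] at h1
    have h3 : (swap (η s) (η (η s)) * swap (η s) s).IsThreeCycle :=
      isThreeCycle_swap_mul_swap_same (fun h => hs (η.injective h).symm) hs hs2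
    intro τ hτ
    obtain ⟨c, hc⟩ := isConj_iff.mp (isConj_iff_cycleType_eq.mpr (h3.cycleType.trans hτ.cycleType.symm))
    rw [← hc]
    exact hRn.conj_mem _ h1 c
  obtain ⟨f⟩ : Nonempty (Fin 4 ↪ Δ) := Function.Embedding.nonempty_of_card_le (by simpa using hr)
  have hf : ∀ i j : Fin 4, i ≠ j → f i ≠ f j := fun i j h h' => h (f.injective h')
  obtain ⟨x, hx, hx'⟩ := h3c _ (isThreeCycle_swap_mul_swap_same (hf 0 1 (by decide)) (hf 0 2 (by decide)) (hf 1 2 (by decide)))
  obtain ⟨y, hy, hy'⟩ := h3c _ (isThreeCycle_swap_mul_swap_same (hf 0 1 (by decide)) (hf 0 3 (by decide)) (hf 1 3 (by decide)))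
  have hpres : ∀ x ∈ M0, ∀ z ∉ Δ, ∀ w ∈ orbit Q z, x • w ∈ orbit Q z ∧ x⁻¹ • w ∈ orbit Q z := fun x hx z hz w hw =>
    ⟨hotr hw (hx.2 w (horbΔ z hz w hw)), hotr hw ((M0.inv_mem hx).2 w (horbΔ z hz w hw))⟩
  refine ⟨((y * x)⁻¹ * (x * y)) ^ p, fun z hz => comm_pow Q hQp z (hidx z hz) x y hx.1 hy.1 (hpres x hx z hz)
    (hpres y hy z hz), f 0, (f 0).2, fun h => ?_⟩
  apply four_pts (hf 0 1 (by decide)) (hf 0 2 (by decide)) (hf 0 3 (by decide)) (hf 1 2 (by decide))
    (hf 1 3 (by decide)) (hf 2 3 (by decide)) hp2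
  rw [← hx', ← hy', ← map_mul, ← map_mul, ← map_inv, ← map_mul, ← map_pow]
  exact Subtype.ext h

theorem agree (G : Subgroup (Perm α)) {k : ℕ} (h : IsMultiplyPretransitive G α k) (hk : k ≤ Fintype.card α)
    (S : Finset α) (hS : S.card ≤ k) (σ : Perm α) : ∃ g : G, ∀ s ∈ S, g • s = σ s := by
  have h1 : IsMultiplyPretransitive G α S.card :=
    isMultiplyPretransitive_of_le hS (by rwa [Nat.card_eq_fintype_card])
  let e : Fin S.card ↪ α := S.equivFin.symm.toEmbedding.trans (Function.Embedding.subtype _)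
  obtain ⟨g, hg⟩ := exists_smul_eq G e (e.trans σ.toEmbedding)
  refine ⟨g, fun s hs => ?_⟩
  have := congrArg (fun f : Fin S.card ↪ α => f (S.equivFin ⟨s, hs⟩)) hg
  simpa [e] using this

theorem miller (G : Subgroup (Perm α)) {p q l r : ℕ} (hp : p.Prime) (hp2 : Odd p) (hq : 1 ≤ q)
    (hqp : q < p) (hl : l.Prime) (hl3 : 3 ≤ l) (hql : q < l) (hlr : l ≤ r) (hr : 4 ≤ r)
    (hn : Fintype.card α = q * p + r) (h : IsMultiplyPretransitive G α (r + 1)) : alternatingGroup α ≤ G := by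
  classical
  have hqp1 : 1 ≤ q * p := Nat.mul_pos hq hp.pos
  obtain ⟨Δ, -, hΔ⟩ := exists_subset_card_eq (s := (univ : Finset α)) (n := r) (by rw [card_univ]; omega)
  have hag := agree G h (by omega)
  let K : Subgroup G :=
    { carrier := {g | ∀ s, g • s ∈ Δ ↔ s ∈ Δ}
      one_mem' := fun s => by rw [one_smul]
      mul_mem' := fun {a b} ha hb s => by rw [mul_smul, ha, hb]
      inv_mem' := fun {a} ha s => by rw [← ha, smul_inv_smul] }
  have hK : ∀ g : G, (∀ s ∈ Δ, g • s ∈ Δ) → g ∈ K := by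
    intro g hg s
    refine ⟨fun hs => ?_, hg s⟩
    have hinj : Function.Injective (fun t : Δ => (⟨g • (t : α), hg t t.2⟩ : Δ)) := fun a b hab =>
      Subtype.ext (smul_left_cancel g (congrArg Subtype.val hab))
    obtain ⟨t, ht⟩ := Finite.surjective_of_injective hinj ⟨_, hs⟩
    have : (t : α) = s := smul_left_cancel g (congrArg Subtype.val ht)
    exact this ▸ t.2
  obtain ⟨k, hk1, s0, hs0, hk2⟩ := mil_core (K := K) Δ (fun k s => k.2 s) (fun σ => by
      obtain ⟨g, hg⟩ := hag Δ (by omega) (ofSubtype σ)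
      have hg' : ∀ s : Δ, g • (s : α) = σ s := fun s => by rw [hg s s.2, ofSubtype_apply_coe]
      exact ⟨⟨g, hK g fun s hs => by rw [hg' ⟨s, hs⟩]; exact (σ ⟨s, hs⟩).2⟩, hg'⟩)
    (fun z hz w hw => by
      obtain ⟨g, hg⟩ := hag (insert z Δ) (by rw [card_insert_of_notMem hz]; omega) (swap z w)
      have hg' : ∀ s ∈ Δ, g • s = s := fun s hs => by
        rw [hg s (mem_insert_of_mem hs), swap_apply_of_ne_of_ne (by rintro rfl; exact hz hs) (by rintro rfl; exact hw hs)]
      refine ⟨⟨g, hK g fun s hs => by rwa [hg' s hs]⟩, mem_fixS.mpr hg', ?_⟩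
      show g • z = w
      rw [hg z (mem_insert_self _ _), swap_apply_left])
    hp hp2 hqp hl hl3 hql (by omega) (by omega) (by omega)
  set x : Perm α := ((k : G) : Perm α) with hx
  have hx1 : ∀ z ∉ Δ, x z = z := hk1
  have hx2 : x s0 ≠ s0 := hk2
  have hxΔ : ∀ s ∈ Δ, x s ∈ Δ := fun s hs => (k.2 s).mpr hs
  have hle : Subgroup.normalClosure {x} ≤ G := by
    rw [Subgroup.normalClosure, Subgroup.closure_le]
    intro y hy
    obtain ⟨x', hx', hc⟩ := Group.mem_conjugatesOfSet_iff.mp hy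
    rw [Set.mem_singleton_iff] at hx'
    subst hx'
    obtain ⟨σ, rfl⟩ := isConj_iff.mp hc
    obtain ⟨g, hg⟩ := hag Δ (by omega) σ
    have hg' : ∀ s ∈ Δ, (g : Perm α) s = σ s := hg
    have : σ * x * σ⁻¹ = (g : Perm α) * x * (g : Perm α)⁻¹ := by
      ext w
      simp only [Perm.mul_apply]
      by_cases h1 : σ⁻¹ w ∈ Δ
      · have e : (g : Perm α)⁻¹ w = σ⁻¹ w := by
          rw [Perm.inv_eq_iff_eq, hg' _ h1]; simp
        rw [e, hg' _ (hxΔ _ h1)]
      · have h2 : (g : Perm α)⁻¹ w ∉ Δ := by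
          intro h3
          apply h1
          have e : σ⁻¹ w = (g : Perm α)⁻¹ w := by
            rw [Perm.inv_eq_iff_eq, ← hg' _ h3]; simp
          rwa [e]
        rw [hx1 _ h1, hx1 _ h2]; simp
    rw [this]
    exact G.mul_mem (G.mul_mem g.2 (k : G).2) (G.inv_mem g.2)
  refine le_trans (alternatingGroup_le_of_normal (by rw [Nat.card_eq_fintype_card]; omega) ?_) hle
  rw [Subgroup.nontrivial_iff_exists_ne_one]
  exact ⟨x, Subgroup.subset_normalClosure rfl, fun h => hx2 (by rw [h]; rfl)⟩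

end H96.PS
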