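import Cfsg.Agent.Lib.Ent96.Imp

/-! Numerical evaluation of the entropy bound, and the stabiliser chain. -/

set_option autoImplicit false
set_option linter.unusedSectionVars false

namespace H96.PS

open MulAction Finset

/-- strict evaluation -/
noncomputable def frc {α : Type} (x : ℕ) (f : ℕ → α) : α :=
  Nat.rec (motive := fun _ => α) (f 0) (fun k _ => f k) (Nat.succ x)

theorem frc_eq {α : Type} (x : ℕ) (f : ℕ → α) : frc x f = f x := rfl

/-- fixed point scale -/
def KK : ℕ := 1099511627776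

def nextP (N : ℕ) (e pi : ℕ → ℕ) (t P : ℕ) : ℕ :=
  ((N - 2 - t - min (e t) (N - 2 - t)) * P + min (e t) (N - 2 - t) * pi t) / (N - 2 - t) + 1

def nextA (N t P A : ℕ) : ℕ := A * (KK + (N - t - 1) * P) / KK + 1

noncomputable def run (N : ℕ) (e pi : ℕ → ℕ) (f : ℕ) : ℕ → ℕ → ℕ → ℕ :=
  Nat.rec (motive := fun _ => ℕ → ℕ → ℕ → ℕ) (fun _ _ A => A)
    (fun _ ih t P A => frc (nextP N e pi t P) fun P' => frc (nextA N t P A) fun A' => frc (t + 1) fun t' => ih t' P' A') f

def seqP (N : ℕ) (e pi : ℕ → ℕ) : ℕ → ℕ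
  | 0 => KK
  | t + 1 => nextP N e pi t (seqP N e pi t)

def seqA (N : ℕ) (e pi : ℕ → ℕ) : ℕ → ℕ
  | 0 => KK
  | t + 1 => nextA N t (seqP N e pi t) (seqA N e pi t)

/-- the value of the bound -/
noncomputable def val (N : ℕ) (e pi : ℕ → ℕ) : ℕ := run N e pi N 0 KK KK / KK

theorem auto_lemmas_Num : True := by
  have := @frc.eq_1
  have := @KK.eq_1
  have := @nextP.eq_1
  have := @nextA.eq_1
  have := @run.eq_1
  have := @seqP.eq_1
  have := @seqP.eq_2
  have := @seqP.eq_def
  have := @seqA.eq_1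
  have := @seqA.eq_2
  have := @seqA.eq_def
  have := @val.eq_1
  trivial

theorem run_eq (N : ℕ) (e pi : ℕ → ℕ) (f : ℕ) : ∀ t, run N e pi f t (seqP N e pi t) (seqA N e pi t) = seqA N e pi (t + f) := by
  induction f with
  | zero => intro t; rfl
  | succ f ih =>
    intro t
    have := ih (t + 1)
    rw [show t + (f + 1) = t + 1 + f by ring, ← this]
    rfl

theorem KK_pos : (0 : ℝ) < KK := by norm_num [KK]

theorem le_div_add_one (a b : ℕ) (hb : 0 < b) : (a : ℝ) / b ≤ ((a / b + 1 : ℕ) : ℝ) := by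
  rw [div_le_iff₀ (by exact_mod_cast hb)]
  have := Nat.lt_div_mul_add (a := a) hb
  have h2 : a ≤ (a / b + 1) * b := by rw [add_mul, one_mul]; omega
  exact_mod_cast h2

theorem prod_le_seqA (N : ℕ) (e pi : ℕ → ℕ) (t : ℕ) :
    ∏ s ∈ range t, (1 + ((N - s - 1 : ℕ) : ℝ) * (seqP N e pi s / KK)) ≤ seqA N e pi t / KK := by
  induction t with
  | zero => simp [seqA, KK_pos.ne']
  | succ t ih =>
    rw [prod_range_succ]
    have h0 : (0 : ℝ) ≤ 1 + ((N - t - 1 : ℕ) : ℝ) * (seqP N e pi t / KK) := by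
      have := KK_pos
      positivity
    refine le_trans (mul_le_mul_of_nonneg_right ih h0) ?_
    have h1 := le_div_add_one (seqA N e pi t * (KK + (N - t - 1) * seqP N e pi t)) KK (by norm_num [KK])
    rw [le_div_iff₀ KK_pos]
    refine le_trans (le_of_eq ?_) h1
    have := KK_pos.ne'
    push_cast
    field_simp

variable {G Ω : Type*} [Group G] [MulAction G Ω] [Finite G] [Fintype Ω] [DecidableEq Ω] [FaithfulSMul G Ω]

theorem bound_val (hn : 2 ≤ Fintype.card Ω) {e : ℕ → ℕ} {π : ℕ → ℝ} (hS : Sep G Ω e π) (N : ℕ)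
    (hN : Fintype.card Ω ≤ N) (pi : ℕ → ℕ) (hπ : ∀ t, π t ≤ pi t / KK) : Nat.card G ≤ val N e pi := by
  have hK := KK_pos
  have h := bound hn hS (fun t => (min (e t) (N - 2 - t) : ℕ) / ((N - 2 - t : ℕ) : ℝ)) (fun t => seqP N e pi t / KK)
    (fun s => 1 + ((N - s - 1 : ℕ) : ℝ) * (seqP N e pi s / KK)) (fun t => by positivity)
    (fun t => div_le_one_of_le₀ (by exact_mod_cast min_le_right _ _) (Nat.cast_nonneg _)) (fun t => ?_)
    (by simp [seqP, hK.ne']) (fun t => by positivity) (fun t ht => ?_) (fun t _ => ?_)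
  · have h2 : ∏ s ∈ range (Fintype.card Ω), (1 + ((N - s - 1 : ℕ) : ℝ) * (seqP N e pi s / KK)) ≤
        ∏ s ∈ range N, (1 + ((N - s - 1 : ℕ) : ℝ) * (seqP N e pi s / KK)) := by
      apply Finset.prod_le_prod_of_subset_of_one_le (range_mono hN)
      · intro s _; positivity
      · intro s _ _
        exact le_add_of_nonneg_right (by positivity)
    have h3 := le_trans (le_trans h h2) (prod_le_seqA N e pi N)
    rw [le_div_iff₀ hK] at h3
    have h4 := run_eq N e pi N 0
    rw [zero_add] at h4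
    rw [val, Nat.le_div_iff_mul_le (by norm_num [KK])]
    change _ ≤ run N e pi N 0 (seqP N e pi 0) (seqA N e pi 0)
    rw [h4]
    exact_mod_cast h3
  · rcases Nat.eq_zero_or_pos (N - 2 - t) with h0 | h0
    · simp [h0]
    · have a1 : ((Fintype.card Ω - 2 - t : ℕ) : ℝ) ≤ ((N - 2 - t : ℕ) : ℝ) := by
        exact_mod_cast (by omega : Fintype.card Ω - 2 - t ≤ N - 2 - t)
      refine le_trans (mul_le_mul_of_nonneg_left a1 (by positivity)) ?_
      rw [div_mul_cancel₀ _ (by exact_mod_cast h0.ne')]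
      exact_mod_cast min_le_left _ _
  · have h0 : 0 < N - 2 - t := by omega
    have h0' : (0 : ℝ) < ((N - 2 - t : ℕ) : ℝ) := by exact_mod_cast h0
    have h1 := le_div_add_one ((N - 2 - t - min (e t) (N - 2 - t)) * seqP N e pi t + min (e t) (N - 2 - t) * pi t)
      (N - 2 - t) h0
    rw [le_div_iff₀ hK]
    refine le_trans ?_ h1
    set M := N - 2 - t
    set e' := min (e t) M
    have h2 : e' ≤ M := min_le_right _ _
    rw [Nat.cast_add, Nat.cast_mul, Nat.cast_mul, Nat.cast_sub h2]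
    have h3 : π t * KK ≤ pi t := (le_div_iff₀ hK).mp (hπ t)
    have h4 : (e' : ℝ) / M * (π t * KK) ≤ e' / M * pi t := mul_le_mul_of_nonneg_left h3 (by positivity)
    have h5 : ((1 - (e' : ℝ) / M) * (seqP N e pi t / KK) + e' / M * π t) * KK =
        (1 - (e' : ℝ) / M) * seqP N e pi t + e' / M * (π t * KK) := by field_simp
    have h6 : (((M : ℝ) - e') * seqP N e pi t + e' * pi t) / M = (1 - (e' : ℝ) / M) * seqP N e pi t + e' / M * pi t := by
      field_simp
    rw [h5, h6]
    linarith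
  · have a1 : ((Fintype.card Ω - t - 1 : ℕ) : ℝ) ≤ ((N - t - 1 : ℕ) : ℝ) := by
      exact_mod_cast (by omega : Fintype.card Ω - t - 1 ≤ N - t - 1)
    have := mul_le_mul_of_nonneg_right a1 (show (0 : ℝ) ≤ seqP N e pi t / KK by positivity)
    linarith

theorem bound_tail (hn : 2 ≤ Fintype.card Ω) {e : ℕ → ℕ} {π : ℕ → ℝ} (hS : Sep G Ω e π) (n : ℕ)
    (hN : Fintype.card Ω ≤ n) (t0 e0 : ℕ) (he : ∀ t, t0 ≤ t → e0 ≤ e t) (hπ : ∀ t, π t ≤ (1 / 2) ^ t)
    (ht0 : 4 ≤ t0) (he0 : 0 < e0) (he1 : 2 * e0 ≤ n) :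
    (Nat.card G : ℝ) ≤ Real.exp ((t0 + 1) * Real.log n + (Real.log n ^ 2 + 1) * n / (0.9 * e0)) := by
  have hn0 : (0 : ℝ) < n := by exact_mod_cast (by omega : 0 < n)
  have hn1 : (1 : ℝ) ≤ n := by exact_mod_cast (by omega : 1 ≤ n)
  have he0' : (0 : ℝ) < e0 := by exact_mod_cast he0
  have he1' : 2 * (e0 : ℝ) ≤ n := by exact_mod_cast he1
  set L := Real.log n with hL
  have hL0 : 0 ≤ L := Real.log_nonneg hn1
  set d : ℝ := e0 / n with hd
  have hd0 : 0 < d := div_pos he0' hn0
  have hd1 : d ≤ 1 / 2 := by rw [hd, div_le_iff₀ hn0]; linarith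
  set ε : ℝ := 0.9 * d with hε
  have hε0 : 0 < ε := by positivity
  have hε1 : ε ≤ 1 / 2 := by linarith
  set m := ⌈L / ε⌉₊ with hm
  have hm1 : L ≤ ε * m := by
    have := Nat.le_ceil (L / ε)
    rw [div_le_iff₀ hε0] at this
    linarith
  have hm2 : (m : ℝ) ≤ L / ε + 1 := (Nat.ceil_lt_add_one (by positivity)).le
  have hnm : n * (1 - ε) ^ m ≤ 1 := by
    have a1 : (1 - ε) ^ m ≤ Real.exp (-ε) ^ m := by
      apply pow_le_pow_left₀ (by linarith)
      have := Real.add_one_le_exp (-ε)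
      linarith
    rw [← Real.exp_nat_mul] at a1
    have a2 : Real.exp (m * -ε) ≤ Real.exp (-L) := Real.exp_le_exp.mpr (by linarith)
    rw [Real.exp_neg, hL, Real.exp_log hn0] at a2
    calc n * (1 - ε) ^ m ≤ n * (n : ℝ)⁻¹ := mul_le_mul_of_nonneg_left (le_trans a1 a2) hn0.le
      _ = 1 := mul_inv_cancel₀ hn0.ne'
  let a : ℕ → ℝ := fun t => if t < t0 + m then L else (1 - ε) ^ (t - (t0 + m))
  have hP1 : ∀ t, (1 - ε) ^ (t - t0) ≤ 1 := fun t => pow_le_one₀ (by linarith) (by linarith)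
  have hP0 : ∀ t : ℕ, 0 ≤ (1 - ε) ^ t := fun t => pow_nonneg (by linarith) _
  have h := bound hn hS (fun t => if t < t0 then 0 else d) (fun t => (1 - ε) ^ (t - t0)) (fun t => Real.exp (a t))
    (fun t => by split_ifs <;> linarith) (fun t => by split_ifs <;> linarith) (fun t => ?_) (by simp)
    (fun t => hP0 _) (fun t _ => ?_) (fun t ht => ?_)
  · refine le_trans h ?_
    rw [← Real.exp_sum, Real.exp_le_exp]
    have ha0 : ∀ t, 0 ≤ a t := fun t => by
      simp only [a]; split_ifs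
      · exact hL0
      · exact hP0 _
    have b1 : ∑ t ∈ range (Fintype.card Ω), a t ≤ ∑ t ∈ range (t0 + m + Fintype.card Ω), a t :=
      Finset.sum_le_sum_of_subset_of_nonneg (range_mono (by omega)) fun t _ _ => ha0 t
    rw [Finset.sum_range_add] at b1
    have b2 : ∑ t ∈ range (t0 + m), a t = (t0 + m) * L := by
      rw [Finset.sum_congr rfl (g := fun _ => L) (fun t ht => by simp only [a]; rw [if_pos (mem_range.mp ht)])]
      simp
    have b3 : ∑ t ∈ range (Fintype.card Ω), a (t0 + m + t) ≤ ε⁻¹ := by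
      rw [Finset.sum_congr rfl (g := fun t => (1 - ε) ^ t) (fun t _ => by
        simp only [a]; rw [if_neg (by omega), Nat.add_sub_cancel_left])]
      have := sum_le_hasSum (range (Fintype.card Ω)) (fun t _ => hP0 t)
        (hasSum_geometric_of_lt_one (by linarith) (by linarith : 1 - ε < 1))
      rwa [sub_sub_cancel] at this
    have b4 : (L ^ 2 + 1) * n / (0.9 * e0) = L / ε * L + ε⁻¹ := by
      rw [hε, hd]; field_simp
    have b5 := mul_le_mul_of_nonneg_right hm2 hL0
    rw [b4]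
    linarith
  · split_ifs with h1
    · simp
    · have a1 : ((Fintype.card Ω - 2 - t : ℕ) : ℝ) ≤ n := by
        exact_mod_cast (by omega : Fintype.card Ω - 2 - t ≤ n)
      refine le_trans (mul_le_mul_of_nonneg_left a1 hd0.le) ?_
      rw [hd, div_mul_cancel₀ _ hn0.ne']
      exact_mod_cast he t (by omega)
  · split_ifs with h1
    · rw [show t - t0 = 0 by omega, show t + 1 - t0 = 0 by omega]; simp
    · rw [show t + 1 - t0 = (t - t0) + 1 by omega, pow_succ]
      have a1 : π t ≤ 0.1 * (1 - ε) ^ (t - t0) := by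
        refine le_trans (hπ t) ?_
        rw [show t = t0 + (t - t0) by omega, pow_add, Nat.add_sub_cancel_left]
        apply mul_le_mul _ (pow_le_pow_left₀ (by norm_num) (by linarith) _) (by positivity) (by norm_num)
        calc ((1 : ℝ) / 2) ^ t0 ≤ (1 / 2) ^ 4 := pow_le_pow_of_le_one (by norm_num) (by norm_num) ht0
          _ ≤ 0.1 := by norm_num
      have a2 := mul_le_mul_of_nonneg_left a1 hd0.le
      rw [hε] at a2 ⊢
      linarith
  · have a1 : ((Fintype.card Ω - t - 1 : ℕ) : ℝ) + 1 ≤ n := by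
      exact_mod_cast (by omega : Fintype.card Ω - t - 1 + 1 ≤ n)
    have a0 : (0 : ℝ) ≤ ((Fintype.card Ω - t - 1 : ℕ) : ℝ) := Nat.cast_nonneg _
    simp only [a]
    split_ifs with h1
    · rw [hL, Real.exp_log hn0]
      have := mul_le_mul_of_nonneg_left (hP1 t) a0
      linarith
    · have a2 := Real.add_one_le_exp ((1 - ε) ^ (t - (t0 + m)))
      rw [show t - t0 = m + (t - (t0 + m)) by omega, pow_add]
      have a3 : ((Fintype.card Ω - t - 1 : ℕ) : ℝ) * (1 - ε) ^ m ≤ 1 :=
        le_trans (mul_le_mul_of_nonneg_right (by linarith) (hP0 m)) hnm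
      have a4 := mul_le_mul_of_nonneg_right a3 (hP0 (t - (t0 + m)))
      linarith

theorem choose_ratio {β m : ℕ} (h : β ≤ m) (t : ℕ) : β.choose t * m ^ t ≤ β ^ t * m.choose t := by
  have h1 : ∀ t, β.descFactorial t * m ^ t ≤ β ^ t * m.descFactorial t := by
    intro t
    induction t with
    | zero => simp
    | succ t ih =>
      rw [Nat.descFactorial_succ, Nat.descFactorial_succ, pow_succ, pow_succ]
      have a1 : (β - t) * m ≤ β * (m - t) := by
        rw [Nat.sub_mul, Nat.mul_sub]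
        apply Nat.sub_le_sub_left
        rw [mul_comm]; exact Nat.mul_le_mul_left _ h
      calc (β - t) * β.descFactorial t * (m ^ t * m) = ((β - t) * m) * (β.descFactorial t * m ^ t) := by ring
        _ ≤ (β * (m - t)) * (β ^ t * m.descFactorial t) := Nat.mul_le_mul a1 ih
        _ = _ := by ring
  have := h1 t
  rw [Nat.descFactorial_eq_factorial_mul_choose, Nat.descFactorial_eq_factorial_mul_choose] at this
  apply Nat.le_of_mul_le_mul_left _ (Nat.factorial_pos t)
  calc _ = t.factorial * β.choose t * m ^ t := by ring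
    _ ≤ _ := this
    _ = _ := by ring

theorem choose_ratio' {β m : ℕ} (h : β ≤ m) (hm : 0 < m) (t : ℕ) :
    (β.choose t : ℝ) / m.choose t ≤ (β : ℝ) ^ t / (m : ℝ) ^ t := by
  rcases Nat.eq_zero_or_pos (m.choose t) with h0 | h0
  · rw [h0, Nat.cast_zero, div_zero]; positivity
  · rw [div_le_div_iff₀ (by exact_mod_cast h0) (by positivity)]
    exact_mod_cast choose_ratio h t

omit [Finite G] [FaithfulSMul G Ω] in
theorem sep_free (h2 : IsMultiplyPretransitive G Ω 2) (a0 : Ω)
    (hp : ¬ IsPreprimitive (stabilizer G a0) (SubMulAction.ofStabilizer G a0)) :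
    Sep G Ω (fun t => (2 * t + 2) / 3) (fun t => (1 / 2) ^ t) := by
  obtain ⟨β, h1, h3, hS⟩ := sep_imp h2 a0 hp
  refine hS.mono (fun t => by omega) (fun t => le_trans (choose_ratio' (by omega) (by omega) t) ?_)
  rw [← div_pow]
  apply pow_le_pow_left₀ (by positivity)
  rw [div_le_iff₀ (by exact_mod_cast (by omega : 0 < Fintype.card Ω - 2))]
  have : ((2 * β : ℕ) : ℝ) ≤ ((Fintype.card Ω - 2 : ℕ) : ℝ) := by exact_mod_cast (by omega)
  push_cast at this
  linarith

universe u v

/-- `X` bounds the order of primitive, not doubly transitive groups of degree `n` -/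
def UB (n : ℕ) (X : ℝ) : Prop :=
  ∀ (G : Type u) (Ω : Type v) [Group G] [MulAction G Ω] [Finite G] [Fintype Ω] [DecidableEq Ω] [FaithfulSMul G Ω],
    Fintype.card Ω = n → IsPreprimitive G Ω → ¬ IsMultiplyPretransitive G Ω 2 → (Nat.card G : ℝ) ≤ X

/-- `X` bounds the order of doubly transitive groups of degree `n` with imprimitive stabiliser -/
def IB (n : ℕ) (X : ℝ) : Prop :=
  ∀ (G : Type u) (Ω : Type v) [Group G] [MulAction G Ω] [Finite G] [Fintype Ω] [DecidableEq Ω] [FaithfulSMul G Ω],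
    Fintype.card Ω = n → IsMultiplyPretransitive G Ω 2 →
    ∀ a0 : Ω, ¬ IsPreprimitive (stabilizer G a0) (SubMulAction.ofStabilizer G a0) → (Nat.card G : ℝ) ≤ X

theorem auto_lemmas_Num2 : True := by
  have := @UB.eq_1.{0,0}
  have := @IB.eq_1.{0,0}
  trivial

theorem chain (X : ℝ) (k : ℕ) : ∀ (n : ℕ) (c : ℝ), 0 ≤ c → k + 1 ≤ n →
    (∀ j ≤ k, ∃ Y, UB.{u, v} (n - j) Y ∧ c * n.descFactorial j * Y ≤ X) →
    (∀ j < k, ∃ Y, IB.{u, v} (n - j) Y ∧ c * n.descFactorial j * Y ≤ X) →
    ∀ (G : Type u) (Ω : Type v) [Group G] [MulAction G Ω] [Finite G] [Fintype Ω] [DecidableEq Ω] [FaithfulSMul G Ω],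
      Fintype.card Ω = n → IsPreprimitive G Ω → ¬ IsMultiplyPretransitive G Ω (k + 2) → c * Nat.card G ≤ X := by
  induction k with
  | zero =>
    intro n c hc _ hU _ G Ω _ _ _ _ _ _ hn hG h2
    obtain ⟨Y, h1, h3⟩ := hU 0 le_rfl
    have := mul_le_mul_of_nonneg_left (h1 G Ω hn hG h2) hc
    simp only [Nat.descFactorial_zero, Nat.cast_one, mul_one] at h3
    linarith
  | succ k ih =>
    intro n c hc hkn hU hI G Ω _ _ _ _ _ _ hn hG hk
    classical
    by_cases h2 : IsMultiplyPretransitive G Ω 2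
    swap
    · obtain ⟨Y, h1, h3⟩ := hU 0 (by omega)
      have := mul_le_mul_of_nonneg_left (h1 G Ω hn hG h2) hc
      simp only [Nat.descFactorial_zero, Nat.cast_one, mul_one] at h3
      linarith
    obtain ⟨a0⟩ : Nonempty Ω := Fintype.card_pos_iff.mp (by omega)
    by_cases hp : IsPreprimitive (stabilizer G a0) (SubMulAction.ofStabilizer G a0)
    swap
    · obtain ⟨Y, h1, h3⟩ := hI 0 (by omega)
      have := mul_le_mul_of_nonneg_left (h1 G Ω hn h2 a0 hp) hc
      simp only [Nat.descFactorial_zero, Nat.cast_one, mul_one] at h3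
      linarith
    have := hG.toIsPretransitive
    obtain ⟨m, rfl⟩ : ∃ m, n = m + 1 := ⟨n - 1, by omega⟩
    have : Fintype (SubMulAction.ofStabilizer G a0) := Fintype.ofFinite _
    have hF : FaithfulSMul (stabilizer G a0) (SubMulAction.ofStabilizer G a0) := ⟨fun {g h} hgh => by
      apply Subtype.ext
      apply FaithfulSMul.eq_of_smul_eq_smul (α := Ω)
      intro x
      by_cases hx : x = a0
      · rw [hx, g.2, h.2]
      · exact congrArg Subtype.val (hgh ⟨x, (SubMulAction.mem_ofStabilizer_iff G a0).mpr hx⟩)⟩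
    have hcard : Fintype.card (SubMulAction.ofStabilizer G a0) = m := by
      have := SubMulAction.nat_card_ofStabilizer_add_one_eq G a0
      rw [Nat.card_eq_fintype_card, Nat.card_eq_fintype_card] at this
      omega
    have hdesc : ∀ j, c * ((m + 1 : ℕ) : ℝ) * m.descFactorial j = c * (m + 1).descFactorial (j + 1) := by
      intro j
      rw [Nat.succ_descFactorial_succ]; push_cast; ring
    have h := ih m (c * ((m + 1 : ℕ) : ℝ)) (by positivity) (by omega)
      (fun j hj => by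
        obtain ⟨Y, h1, h3⟩ := hU (j + 1) (by omega)
        exact ⟨Y, by rwa [Nat.add_sub_add_right] at h1, by rwa [hdesc]⟩)
      (fun j hj => by
        obtain ⟨Y, h1, h3⟩ := hI (j + 1) (by omega)
        exact ⟨Y, by rwa [Nat.add_sub_add_right] at h1, by rwa [hdesc]⟩)
      (stabilizer G a0) (SubMulAction.ofStabilizer G a0) hcard hp
      (fun h => hk (SubMulAction.ofStabilizer.isMultiplyPretransitive.mpr h))
    have h5 := (stabilizer G a0).index_mul_card
    rw [index_stabilizer_of_transitive, Nat.card_eq_fintype_card (α := Ω), hn] at h5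
    rw [← h5]
    push_cast at h ⊢
    linarith

end H96.PS
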