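import Cfsg.Agent.Lib.Ent96.Num

/-! Kernel tables for degrees up to `10000`. -/

set_option autoImplicit false

namespace H96.PS

def eT : List ℕ := [
  0, 0, 0, 0, 0, 0, 0, 0, 0, 0, 0, 0, 0, 0, 3, 3, 3, 3, 3, 3, 4, 4, 4, 4, 4, 4, 4, 4, 4, 5, 5, 5, 5, 5, 5, 5,
  5, 5, 6, 6, 6, 6, 6, 6, 6, 6, 6, 6, 6, 6, 7, 7, 7, 7, 7, 7, 7, 7, 7, 7, 7, 7, 8, 8, 8, 8, 8, 8, 8, 8, 8]

def uT : List ℕ := [
  0, 0, 0, 0, 0, 0, 0, 0, 0, 0, 0, 0, 0, 0, 81696, 308874, 1216156, 4976126, 21117854, 92791554, 16618831,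
  61917227, 236939380, 930308579, 3744248328, 15433508793, 65098230664, 280766265144, 1237316644165,
  96409117684, 364286546531, 1400884230749, 5480027593589, 21796355328757, 88108107728409, 361825401691167,
  1508908996018974, 6387723239346025, 283892606317579, 1048173449335159, 3919352154502073, 14838092644804229,
  56860466211969235, 220496716628504994, 865064841748552477, 3432810310429263481, 13775564781886173556,
  55890135267188903060, 229212512440701198869, 950021772976239000247, 19509745528298997779,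
  71410846524581651751, 263789608740694136256, 983253035701932900643, 3697621985557306505667,
  14027071450125607705752, 53670859779929798670709, 207099416931866983234863, 805808035839467014788418,
  3161128193273333965565039, 12501367539400396262131523, 49834094241283790618870043, 590627286107628336899277,
  2106085811860341948055137, 7562889592725414865679910, 27346824074518742967376918, 99561847896829615048887849,
  364927441981313026754780262, 1346509151568591152607348039, 5001082713765160686630951199,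
  18695385774467500461189358297]

def iT : List ℕ := [
  0, 0, 0, 0, 0, 0, 0, 0, 0, 0, 0, 0, 0, 0, 653188, 1945579, 5891706, 17379988, 51527391, 150066847, 436598113,
  1253795774, 3585918189, 10151453258, 28580865294, 79780105115, 221357981594, 609565235243, 1668312311205,
  4534868402420, 12252582852836, 32896084132324, 87805568057783, 232985515444665, 614751173948978,
  1613037883858346, 4209780474630974, 10928867736779582, 28226977962534874, 72538144162639240,
  185498671664324553, 472094786303661692, 1195866570484484480, 3015384501178722075, 7569277657005425489,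
  18917233191182335029, 47075317415051423790, 116653798421991562139, 287880397872591500519,
  707567929789566498268, 1732214845676633312376, 4224214546538333892874, 10262024189335431285799,
  24836698976844094447612, 59890585687862127064398, 143898429304843455990747, 344520024054790207694455,
  821979450921379923260389, 1986106561244149949285615, 4873938467805249983846984, 11914444691083645962553443,
  29014492926205484898770382, 70393689257606498619660391, 170160690488756915390009692,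
  409845165244680522503839565, 983655185813110272561737861, 2352637624161707797483530026,
  5607665047881157415480718853, 13321372987479003290754236781, 31541336778288887535008252826,
  74438731735382715188523936129]

def smT : List (ℕ × ℕ × ℕ) := [
  (1, 17, 3), (1, 19, 3), (1, 19, 3), (4, 5, 5), (2, 11, 3), (1, 23, 3), (1, 23, 3), (1, 23, 3), (2, 13, 3),
  (2, 13, 3), (2, 13, 3), (1, 29, 3), (1, 29, 3), (1, 31, 3), (1, 31, 3), (1, 31, 3), (2, 17, 3), (2, 17, 3),
  (2, 17, 3), (1, 37, 3), (2, 19, 3), (2, 19, 3), (3, 13, 5), (1, 41, 3), (1, 41, 3), (1, 43, 3), (1, 43, 3),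
  (4, 11, 5), (2, 23, 3), (1, 47, 3), (1, 47, 3), (1, 47, 3), (1, 47, 3), (1, 47, 3), (3, 17, 5), (1, 53, 3),
  (1, 53, 3), (1, 53, 3), (1, 53, 3), (1, 53, 3), (2, 29, 3), (1, 59, 3), (1, 59, 3), (1, 61, 3), (2, 31, 3),
  (2, 31, 3), (2, 31, 3), (2, 31, 3), (2, 31, 3)]

def grT : List (ℕ × ℕ × ℕ × ℕ × ℕ × ℕ) := [
  (71, 73, 1, 67, 3, 8), (74, 75, 3, 23, 5, 8), (76, 77, 1, 71, 3, 8), (78, 80, 2, 37, 3, 8),
  (81, 82, 4, 19, 5, 9), (83, 85, 1, 79, 3, 9), (86, 89, 2, 41, 3, 9), (90, 93, 2, 43, 3, 9),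
  (94, 96, 1, 89, 3, 9), (97, 100, 4, 23, 5, 10), (101, 105, 1, 97, 3, 10), (106, 109, 1, 101, 3, 10),
  (110, 114, 2, 53, 3, 10), (115, 118, 1, 109, 3, 11), (119, 122, 1, 113, 3, 11), (123, 128, 2, 59, 3, 11),
  (129, 134, 4, 31, 5, 11), (135, 141, 1, 131, 3, 12), (142, 148, 1, 137, 3, 12), (149, 154, 2, 71, 3, 12),
  (155, 163, 1, 151, 3, 13), (164, 172, 3, 53, 5, 13), (173, 181, 1, 167, 3, 13), (182, 193, 2, 89, 3, 14),
  (194, 204, 4, 47, 5, 14), (205, 216, 1, 199, 3, 15), (217, 230, 4, 53, 5, 15), (231, 246, 1, 227, 3, 16),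
  (247, 262, 1, 241, 3, 16), (263, 279, 1, 257, 3, 17), (280, 298, 2, 137, 3, 18), (299, 319, 1, 293, 3, 18),
  (320, 342, 2, 157, 3, 19), (343, 367, 1, 337, 3, 20), (368, 394, 2, 181, 3, 20), (395, 424, 1, 389, 3, 21),
  (425, 459, 1, 421, 3, 22), (460, 491, 1, 449, 3, 23), (492, 531, 1, 487, 3, 24), (532, 572, 1, 523, 3, 25),
  (573, 621, 1, 569, 3, 26), (622, 674, 1, 617, 3, 27), (675, 724, 1, 661, 3, 28), (725, 785, 1, 719, 3, 29),
  (786, 848, 1, 773, 3, 31), (849, 919, 1, 839, 3, 32), (920, 997, 1, 911, 3, 33), (998, 1086, 1, 991, 3, 35),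
  (1087, 1173, 1, 1069, 3, 36), (1174, 1276, 1, 1163, 3, 38), (1277, 1381, 1, 1259, 3, 39),
  (1382, 1506, 1, 1373, 3, 41), (1507, 1645, 1, 1499, 3, 43), (1646, 1797, 1, 1637, 3, 45),
  (1798, 1965, 1, 1789, 3, 47), (1966, 2147, 1, 1951, 3, 50), (2148, 2356, 1, 2143, 3, 52),
  (2357, 2584, 1, 2351, 3, 54), (2585, 2837, 1, 2579, 3, 57), (2838, 3118, 1, 2833, 3, 60),
  (3119, 3424, 1, 3109, 3, 63), (3425, 3760, 1, 3413, 3, 66), (3761, 4122, 1, 3739, 3, 69),
  (4123, 4533, 1, 4111, 3, 73), (4534, 4986, 1, 4523, 3, 76), (4987, 5485, 1, 4973, 3, 80),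
  (5486, 6043, 1, 5479, 3, 84), (6044, 6659, 1, 6037, 3, 88), (6660, 7342, 1, 6653, 3, 93),
  (7343, 8092, 1, 7333, 3, 97), (8093, 8927, 1, 8089, 3, 102), (8928, 9852, 1, 8923, 3, 108),
  (9853, 10000, 1, 9839, 3, 113)]

def isP (p : ℕ) : Bool :=
  decide (2 ≤ p) && decide (p < 10201) && (List.range 101).all fun d => decide (d < 2) || decide (p < d * d) || p % d != 0

noncomputable def chkU (n : ℕ) : Bool :=
  decide (3 * (eT.getD n 0 + 1) ^ 2 < 4 * (n - 1)) && decide (val n (fun _ => eT.getD n 0) (fun _ => 0) ≤ uT.getD n 0)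

noncomputable def chkI (n : ℕ) : Bool :=
  (List.range ((n - 3) / 2)).all fun b => frc (b + 1) fun β =>
    decide (val n (fun t => max (t - β) (2 * β)) (fun t => KK * β ^ t / (n - 2) ^ t + 1) ≤ iT.getD n 0)

def okM (n q p l : ℕ) : Bool :=
  isP p && isP l && decide (3 ≤ p) && decide (1 ≤ q) && decide (q < p) && decide (3 ≤ l) && decide (q < l) &&
    decide (q * p + l ≤ n) && decide (q * p + 4 ≤ n)

def chkS (n : ℕ) (x : ℕ × ℕ × ℕ) : Bool :=
  okM n x.1 x.2.1 x.2.2 && decide (13 ≤ x.1 * x.2.1) &&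
    ((List.range (n - x.1 * x.2.1)).all fun j => decide (n.descFactorial j * uT.getD (n - j) 0 ≤ 4 ^ n)) &&
    ((List.range (n - x.1 * x.2.1 - 1)).all fun j => decide (n.descFactorial j * iT.getD (n - j) 0 ≤ 4 ^ n))

noncomputable def chkG (x : ℕ × ℕ × ℕ × ℕ × ℕ × ℕ) : Bool :=
  okM x.1 x.2.2.1 x.2.2.2.1 x.2.2.2.2.1 && decide (13 ≤ x.2.2.1 * x.2.2.2.1) &&
    decide (3 * (x.2.2.2.2.2 + 1) ^ 2 < 4 * (x.2.2.1 * x.2.2.2.1)) &&
    decide (x.2.1 ^ (x.2.1 - x.2.2.1 * x.2.2.2.1 - 1) * val x.2.1 (fun _ => x.2.2.2.2.2) (fun _ => 0) ≤ 4 ^ x.1) &&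
    decide (x.2.1 ^ (x.2.1 - x.2.2.1 * x.2.2.2.1 - 1) *
      val x.2.1 (fun t => (2 * t + 2) / 3) (fun t => KK / 2 ^ t + 1) ≤ 4 ^ x.1)

/-- consecutive intervals starting at `a` cover everything up to `10000` -/
def cov : ℕ → List (ℕ × ℕ × ℕ × ℕ × ℕ × ℕ) → Bool
  | a, [] => decide (10000 < a)
  | a, x :: l => decide (x.1 ≤ a) && cov (x.2.1 + 1) l

theorem auto_lemmas_Tab : True := by
  have := @eT.eq_1
  have := @uT.eq_1
  have := @iT.eq_1
  have := @smT.eq_1
  have := @grT.eq_1
  have := @isP.eq_1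
  have := @chkU.eq_1
  have := @chkI.eq_1
  have := @okM.eq_1
  have := @chkS.eq_1
  have := @chkG.eq_1
  have := @cov.eq_1
  have := @cov.eq_2
  have := @cov.eq_def
  trivial

theorem tabU : ((List.range 57).all fun i => frc (i + 14) chkU) = true := by decide +kernel

theorem tabI : ((List.range 57).all fun i => frc (i + 14) chkI) = true := by decide +kernel

theorem tabS : ((List.range 49).all fun i => frc (i + 22) fun n => chkS n (smT.getD i (0, 0, 0))) = true := by
  decide +kernel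

theorem tabC : cov 71 grT = true := by decide +kernel

theorem tabG1 : (grT.take 60).all chkG = true := by decide +kernel

theorem tabG2 : ((grT.drop 60).take 7).all chkG = true := by decide +kernel

theorem tabG3 : ((grT.drop 60).drop 7).all chkG = true := by decide +kernel

theorem tabG : ∀ x ∈ grT, chkG x = true := by
  intro x hx
  rw [← List.take_append_drop 60 grT, ← List.take_append_drop 7 (grT.drop 60), List.mem_append, List.mem_append] at hx
  rcases hx with h | h | h
  · exact List.all_eq_true.mp tabG1 x h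
  · exact List.all_eq_true.mp tabG2 x h
  · exact List.all_eq_true.mp tabG3 x h

theorem cov_spec : ∀ (l : List (ℕ × ℕ × ℕ × ℕ × ℕ × ℕ)) (a n : ℕ), cov a l = true → a ≤ n → n ≤ 10000 →
    ∃ x ∈ l, x.1 ≤ n ∧ n ≤ x.2.1
  | [], a, n, h, h1, h2 => by
    simp only [cov, decide_eq_true_eq] at h
    omega
  | x :: l, a, n, h, h1, h2 => by
    simp only [cov, Bool.and_eq_true, decide_eq_true_eq] at h
    by_cases h3 : n ≤ x.2.1
    · exact ⟨x, List.mem_cons_self, by omega, h3⟩
    · obtain ⟨y, hy, h4⟩ := cov_spec l _ n h.2 (by omega) h2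
      exact ⟨y, List.mem_cons_of_mem _ hy, h4⟩

theorem isP_spec {p : ℕ} (h : isP p = true) : p.Prime := by
  simp only [isP, Bool.and_eq_true, decide_eq_true_eq, List.all_eq_true, List.mem_range, Bool.or_eq_true,
    bne_iff_ne] at h
  obtain ⟨⟨h1, h2⟩, h3⟩ := h
  rw [Nat.prime_def_le_sqrt]
  refine ⟨h1, fun m hm hm' hd => ?_⟩
  rw [Nat.le_sqrt] at hm'
  have h4 : m < 101 := by nlinarith
  rcases h3 m h4 with (h | h) | h
  · omega
  · omega
  · exact h (Nat.mod_eq_zero_of_dvd hd)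

theorem okM_spec {n q p l : ℕ} (h : okM n q p l = true) :
    p.Prime ∧ l.Prime ∧ 3 ≤ p ∧ 1 ≤ q ∧ q < p ∧ 3 ≤ l ∧ q < l ∧ q * p + l ≤ n ∧ q * p + 4 ≤ n := by
  simp only [okM, Bool.and_eq_true, decide_eq_true_eq] at h
  obtain ⟨⟨⟨⟨⟨⟨⟨⟨a, b⟩, c⟩, d⟩, e⟩, f⟩, g⟩, i⟩, j⟩ := h
  exact ⟨isP_spec a, isP_spec b, c, d, e, f, g, i, j⟩

end H96.PS
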