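import Cfsg.Agent.Lib.Ent96.Ent

/-! Primitive, not doubly transitive groups: two points are separated by many third points. -/

set_option autoImplicit false
set_option linter.unusedSectionVars false

namespace H96.PS

open MulAction Finset
open scoped Pointwise

variable {G Ω : Type*} [Group G] [MulAction G Ω]

theorem prim_equiv (hG : IsPreprimitive G Ω) (r : Ω → Ω → Prop) (hr : Equivalence r)
    (hinv : ∀ (g : G) a b, r a b → r (g • a) (g • b)) : (∀ a b, r a b → a = b) ∨ ∀ a b, r a b := by
  by_cases h : ∀ a b, r a b → a = b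
  · exact Or.inl h
  right
  push Not at h
  obtain ⟨a, b, hab, hne⟩ := h
  have hB : IsBlock G {c | r a c} := by
    rw [isBlock_iff_smul_eq_of_mem]
    intro g c hc hgc
    simp only [Set.mem_ofPred_eq] at hc hgc
    ext u
    rw [Set.mem_smul_set_iff_inv_smul_mem]
    simp only [Set.mem_ofPred_eq]
    constructor
    · intro hu
      have := hinv g _ _ (hr.trans (hr.symm hc) hu)
      rw [smul_inv_smul] at this
      exact hr.trans hgc this
    · intro hu
      have := hinv g⁻¹ _ _ (hr.trans (hr.symm hgc) hu)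
      rw [inv_smul_smul] at this
      exact hr.trans hc this
  rcases hG.isTrivialBlock_of_isBlock hB with h | h
  · exact absurd (h (show a ∈ {c | r a c} from hr.refl a) (show b ∈ {c | r a c} from hab)) hne
  · intro u v
    have hu : u ∈ {c | r a c} := by rw [h]; trivial
    have hv : v ∈ {c | r a c} := by rw [h]; trivial
    exact hr.trans (hr.symm hu) hv

/-- walks of a given length -/
def Wk (r : Ω → Ω → Prop) : ℕ → Ω → Ω → Prop
  | 0, z, x => z = x
  | s + 1, z, x => ∃ y, Wk r s z y ∧ r y x

theorem auto_lemmas_Uni : True := by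
  have := @Wk.eq_1.{0}
  have := @Wk.eq_2.{0}
  have := @Wk.eq_def.{0}
  trivial

theorem Wk.smul {r : Ω → Ω → Prop} (hinv : ∀ (g : G) a b, r a b → r (g • a) (g • b)) (g : G) :
    ∀ s z x, Wk r s z x → Wk r s (g • z) (g • x)
  | 0, z, x, h => by
    have : z = x := h
    subst this; rfl
  | s + 1, z, x, ⟨y, h1, h2⟩ => ⟨g • y, Wk.smul hinv g s z y h1, hinv g _ _ h2⟩

theorem arith_uni {k k' d : ℕ} (h1 : 2 * (k' * (k - d)) ≤ k * (d - 2)) (h2 : k ≤ k' * (k' - 1)) (h3 : 3 * d < 2 * k)
    (hd : 2 ≤ d) (hk' : 1 ≤ k') : 4 * (k + k') ≤ 3 * d ^ 2 := by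
  by_contra h
  push Not at h
  obtain ⟨e, rfl⟩ : ∃ e, d = e + 2 := ⟨d - 2, by omega⟩
  obtain ⟨j, rfl⟩ : ∃ j, k' = j + 1 := ⟨k' - 1, by omega⟩
  obtain ⟨m, rfl⟩ : ∃ m, k = m + (e + 2) := ⟨k - (e + 2), by omega⟩
  simp only [Nat.add_sub_cancel] at h1 h2
  have a1 : 2 * (j + 1) < 3 * e := by
    by_contra h4
    push Not at h4
    nlinarith
  have a2 : 3 * (e + 2) * e < 4 * (m + (e + 2)) := by nlinarith
  have a3 : 2 * (j + 1) < e + 4 := by
    by_contra h4
    push Not at h4
    nlinarith
  nlinarith

variable [Fintype Ω] [DecidableEq Ω]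

open Classical in
theorem card_inv (r : Ω → Ω → Ω → Prop) (hinv : ∀ (g : G) a b c, r a b c → r (g • a) (g • b) (g • c))
    (g : G) (a b : Ω) : (univ.filter (r (g • a) (g • b))).card = (univ.filter (r a b)).card := by
  symm
  refine Finset.card_equiv (MulAction.toPerm g) fun z => ?_
  simp only [mem_filter, mem_univ, true_and, toPerm_apply]
  refine ⟨hinv g _ _ _, fun h => ?_⟩
  simpa using hinv g⁻¹ _ _ _ h

open Classical in
theorem card_inv2 [IsPretransitive G Ω] (r : Ω → Ω → Prop) (hinv : ∀ (g : G) a b, r a b → r (g • a) (g • b))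
    (a b : Ω) : (univ.filter (r a)).card = (univ.filter (r b)).card := by
  obtain ⟨g, rfl⟩ := exists_smul_eq G b a
  exact card_inv (fun a _ c => r a c) (fun g a _ c h => hinv g a c h) g b b

omit [Fintype Ω] in
theorem good_smul (g : G) {a b c : Ω} (h : Good G {c} a b) : Good G {g • c} (g • a) (g • b) := by
  obtain ⟨u, h1, h2⟩ := h
  refine ⟨g * u * g⁻¹, fun s hs => ?_, ?_⟩
  · rw [mem_singleton] at hs
    subst hs
    simp [mul_smul, h1 c (mem_singleton_self c)]
  · simp [mul_smul, h2]

open Classical in
theorem sep_card (hG : IsPreprimitive G Ω) (h2 : ¬ IsMultiplyPretransitive G Ω 2) (hn : 7 ≤ Fintype.card Ω)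
    {x0 y0 : Ω} (hxy : x0 ≠ y0) :
    4 * (Fintype.card Ω - 1) ≤ 3 * (univ.filter (fun z => ¬ Good G {z} x0 y0)).card ^ 2 := by
  have := hG.toIsPretransitive
  set n := Fintype.card Ω with hn'
  let D : Ω → Ω → Finset Ω := fun u v => univ.filter (fun z => ¬ Good G {z} u v)
  set d := (univ.filter (fun z => ¬ Good G {z} x0 y0)).card with hd
  let R : Ω → Ω → Prop := fun u v => ∃ g : G, g • x0 = u ∧ g • y0 = v
  let adj : Ω → Ω → Prop := fun u v => R u v ∨ R v u
  have hRinv : ∀ (g : G) a b, R a b → R (g • a) (g • b) := by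
    rintro g a b ⟨u, rfl, rfl⟩
    exact ⟨g * u, mul_smul _ _ _, mul_smul _ _ _⟩
  have hainv : ∀ (g : G) a b, adj a b → adj (g • a) (g • b) := fun g a b h =>
    h.imp (hRinv g a b) (hRinv g b a)
  have hsym : ∀ a b, adj a b → adj b a := fun a b h => h.symm
  have hirr : ∀ a b, adj a b → a ≠ b := by
    rintro a b (⟨u, rfl, rfl⟩ | ⟨u, rfl, rfl⟩) h
    · exact hxy (smul_left_cancel u h)
    · exact hxy (smul_left_cancel u h).symm
  have hDs : ∀ u v, D u v = D v u := by
    intro u v
    ext z
    simp only [D, mem_filter, mem_univ, true_and]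
    exact not_congr ⟨Good.symm, Good.symm⟩
  have hDR : ∀ u v, R u v → (D u v).card = d := by
    rintro u v ⟨g, rfl, rfl⟩
    have := card_inv (G := G) (fun a b c => ¬ Good G {c} a b)
      (fun g a b c h h' => h (by simpa using good_smul g⁻¹ h')) g x0 y0
    rw [hd]
    convert this
  have hD : ∀ u v, adj u v → (D u v).card = d := by
    rintro u v (h | h)
    · exact hDR u v h
    · rw [hDs]; exact hDR v u h
  have hmemD : ∀ (φ : Ω → Ω → Prop), (∀ (g : G) a b, φ a b → φ (g • a) (g • b)) →
      ∀ z u v, φ z u → ¬ φ z v → z ∈ D u v := by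
    intro φ hφ z u v h1 h3
    simp only [D, mem_filter, mem_univ, true_and]
    rintro ⟨g, hg, rfl⟩
    have := hφ g _ _ h1
    rw [hg z (mem_singleton_self z)] at this
    exact h3 this
  have hd2 : 2 ≤ d := by
    have : ({x0, y0} : Finset Ω) ⊆ D x0 y0 := by
      intro z hz
      simp only [mem_insert, mem_singleton] at hz
      rcases hz with rfl | rfl
      · exact hmemD (fun a b => a = b) (fun g a b h => by rw [h]) _ _ _ rfl hxy
      · rw [hDs]; exact hmemD (fun a b => a = b) (fun g a b h => by rw [h]) _ _ _ rfl hxy.symm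
    have h3 := card_le_card this
    rwa [card_pair hxy] at h3
  let N : Ω → Finset Ω := fun u => univ.filter (adj u)
  have hmN : ∀ u v, v ∈ N u ↔ adj u v := fun u v => by simp [N]
  set k := (N x0).card with hk
  have hNk : ∀ u, (N u).card = k := fun u => by rw [hk]; convert card_inv2 adj hainv u x0
  have h0 : ∀ u v, adj u v → 2 * (N u \ N v).card ≤ d := by
    intro u v huv
    have e1 : (N u \ N v).card = (N v \ N u).card := card_sdiff_comm (by rw [hNk, hNk])
    have hdis : Disjoint (N u \ N v) (N v \ N u) := disjoint_sdiff_sdiff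
    have hsub : (N u \ N v) ∪ (N v \ N u) ⊆ D u v := by
      intro z hz
      simp only [mem_union, mem_sdiff, hmN] at hz
      rcases hz with ⟨a, b⟩ | ⟨a, b⟩
      · exact hmemD adj hainv z u v (hsym _ _ a) (fun h => b (hsym _ _ h))
      · rw [hDs]; exact hmemD adj hainv z v u (hsym _ _ a) (fun h => b (hsym _ _ h))
    have := card_le_card hsub
    rw [card_union_of_disjoint hdis, hD u v huv] at this
    omega
  have hadj0 : adj x0 y0 := Or.inl ⟨1, one_smul _ _, one_smul _ _⟩
  have hconn : ∀ a b, Relation.ReflTransGen adj a b := by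
    rcases prim_equiv hG (Relation.ReflTransGen adj)
      ⟨fun _ => .refl, fun h => by
        induction h with
        | refl => exact .refl
        | tail _ h ih => exact .head (hsym _ _ h) ih, fun h h' => h.trans h'⟩
      (fun g a b h => by
        induction h with
        | refl => exact .refl
        | tail _ h ih => exact .tail ih (hainv g _ _ h)) with h | h
    · exact absurd (h _ _ (Relation.ReflTransGen.single hadj0)) hxy
    · exact h
  have hW : ∀ a b, ∃ s, Wk adj s a b := by
    intro a b
    induction hconn a b with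
    | refl => exact ⟨0, rfl⟩
    | tail _ h ih =>
      obtain ⟨s, hs⟩ := ih
      exact ⟨s + 1, _, hs, h⟩
  let f : Ω → Ω → ℕ := fun a b => Nat.find (hW a b)
  have hfinv : ∀ (g : G) a b, f (g • a) (g • b) ≤ f a b := fun g a b =>
    Nat.find_min' _ (Wk.smul hainv g _ _ _ (Nat.find_spec (hW a b)))
  have h1 : 2 * (n - 1) ≤ k * d := by
    let C : Ω → Ω → Finset Ω := fun x y => univ.filter (fun z => f z y < f z x)
    have c1 : ∀ x, n - 1 ≤ ∑ y ∈ N x, (C x y).card := by
      intro x
      have : univ.erase x ⊆ (N x).biUnion (C x) := by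
        intro z hz
        have hzx : z ≠ x := ne_of_mem_erase hz
        have hs := Nat.find_spec (hW z x)
        rcases hf : Nat.find (hW z x) with _ | s
        · rw [hf] at hs; exact absurd hs hzx
        · rw [hf] at hs
          obtain ⟨y, a, b⟩ := hs
          simp only [mem_biUnion, hmN, C, mem_filter, mem_univ, true_and]
          refine ⟨y, hsym _ _ b, ?_⟩
          have : f z y ≤ s := Nat.find_min' _ a
          have h5 : f z x = s + 1 := hf
          omega
      have h3 := le_trans (card_le_card this) card_biUnion_le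
      rwa [card_erase_of_mem (mem_univ _), card_univ] at h3
    have c2 : ∑ x, ∑ y ∈ N x, (C x y).card = ∑ x, ∑ y ∈ N x, (C y x).card := by
      apply Finset.sum_comm'
      intro x y
      simp only [mem_univ, true_and, and_true, hmN]
      exact ⟨hsym _ _, hsym _ _⟩
    have c3 : ∀ x, ∀ y ∈ N x, (C x y).card + (C y x).card ≤ d := by
      intro x y hy
      rw [hmN] at hy
      have hdis : Disjoint (C x y) (C y x) := by
        rw [disjoint_left]
        intro z a b
        simp only [C, mem_filter, mem_univ, true_and] at a b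
        omega
      have hsub : C x y ∪ C y x ⊆ D x y := by
        intro z hz
        simp only [C, mem_union, mem_filter, mem_univ, true_and] at hz
        rcases hz with a | a
        · rw [hDs]
          exact hmemD (fun a b => f a b ≤ f z y) (fun g a b h => le_trans (hfinv g a b) h) z y x le_rfl (by omega)
        · exact hmemD (fun a b => f a b ≤ f z x) (fun g a b h => le_trans (hfinv g a b) h) z x y le_rfl (by omega)
      have := card_le_card hsub
      rwa [card_union_of_disjoint hdis, hD x y hy] at this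
    have c4 : ∑ _x : Ω, (n - 1) ≤ ∑ x, ∑ y ∈ N x, (C x y).card := Finset.sum_le_sum fun x _ => c1 x
    have c5 : ∑ x, ∑ y ∈ N x, ((C x y).card + (C y x).card) ≤ ∑ x : Ω, ∑ _y ∈ N x, d :=
      Finset.sum_le_sum fun x _ => Finset.sum_le_sum (c3 x)
    simp only [Finset.sum_add_distrib, sum_const, card_univ, smul_eq_mul, hNk, ← hn'] at c4 c5
    rw [← c2] at c5
    have : n * (2 * (n - 1)) ≤ n * (k * d) := by nlinarith
    exact Nat.le_of_mul_le_mul_left this (by omega)
  by_cases h3 : 2 * k ≤ 3 * d
  · nlinarith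
  push Not at h3
  have hsd : ∀ a b c : Ω, (N a \ N c).card ≤ (N a \ N b).card + (N b \ N c).card := fun a b c =>
    le_trans (card_le_card (fun z hz => by
      simp only [mem_union, mem_sdiff] at hz ⊢
      tauto)) (card_union_le _ _)
  have hrel : ∀ x w, x = w ∨ adj x w ∨ ∃ y, adj x y ∧ adj y w := by
    intro x w
    induction hconn x w with
    | refl => exact Or.inl rfl
    | @tail z w _ h ih =>
      rcases ih with rfl | ih | ⟨y, a, b⟩
      · exact Or.inr (Or.inl h)
      · exact Or.inr (Or.inr ⟨z, ih, h⟩)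
      · right; right
        have e1 := h0 _ _ a
        have e2 := h0 _ _ b
        have e3 := h0 _ _ h
        have e4 := hsd x y w
        have e5 := hsd y z w
        have e6 := card_sdiff_add_card_inter (N x) (N w)
        rw [hNk] at e6
        obtain ⟨u, hu⟩ : (N x ∩ N w).Nonempty := card_pos.mp (by omega)
        rw [mem_inter, hmN, hmN] at hu
        exact ⟨u, hu.1, hsym _ _ hu.2⟩
  let N' : Ω → Finset Ω := fun u => univ.filter (fun v => u ≠ v ∧ ¬ adj u v)
  have hmN' : ∀ u v, v ∈ N' u ↔ u ≠ v ∧ ¬ adj u v := fun u v => by simp [N']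
  have hninv : ∀ (g : G) a b, (a ≠ b ∧ ¬ adj a b) → (g • a ≠ g • b ∧ ¬ adj (g • a) (g • b)) := by
    rintro g a b ⟨h4, h5⟩
    refine ⟨fun h => h4 (smul_left_cancel g h), fun h => h5 ?_⟩
    simpa using hainv g⁻¹ _ _ h
  set k' := (N' x0).card with hk'
  have hNk' : ∀ u, (N' u).card = k' := fun u => by
    rw [hk']; convert card_inv2 (fun u v => u ≠ v ∧ ¬ adj u v) hninv u x0
  have hsum : k + k' = n - 1 := by
    have hdis : Disjoint (N x0) (N' x0) := by
      rw [disjoint_left]
      intro z a b
      rw [hmN] at a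
      rw [hmN'] at b
      exact b.2 a
    rw [hk, hk', ← card_union_of_disjoint hdis, hn', ← card_univ, ← card_erase_of_mem (mem_univ x0)]
    congr 1
    ext z
    simp only [mem_union, hmN, hmN', mem_erase, mem_univ, and_true]
    constructor
    · rintro (h | h)
      · exact (hirr _ _ h).symm
      · exact h.1.symm
    · intro h
      by_cases h4 : adj x0 z
      · exact Or.inl h4
      · exact Or.inr ⟨h.symm, h4⟩
  rcases Nat.eq_zero_or_pos k' with hk0 | hk0
  · -- tournament
    have hall : ∀ u v, u ≠ v → adj u v := by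
      intro u v huv
      by_contra h
      have : v ∈ N' u := (hmN' u v).mpr ⟨huv, h⟩
      have h5 := card_pos.mpr ⟨v, this⟩
      rw [hNk'] at h5
      omega
    have hasym : ∀ u v, R u v → ¬ R v u := by
      rintro u v ⟨g, rfl, rfl⟩ ⟨h, a, b⟩
      apply h2
      have hsw : ∀ u v, R u v → R v u := by
        rintro u v ⟨w, rfl, rfl⟩
        exact ⟨w * g⁻¹ * h, by simp [mul_smul, a], by simp [mul_smul, b]⟩
      have hR : ∀ u v, u ≠ v → R u v := fun u v huv => (hall u v huv).elim id (hsw _ _)
      rw [is_two_pretransitive_iff]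
      intro a b c e hab hce
      obtain ⟨w, rfl, rfl⟩ := hR a b hab
      obtain ⟨w', rfl, rfl⟩ := hR c e hce
      exact ⟨w' * w⁻¹, by simp [mul_smul], by simp [mul_smul]⟩
    let O : Ω → Finset Ω := fun u => univ.filter (R u)
    let I : Ω → Finset Ω := fun u => univ.filter (fun v => R v u)
    have hO : ∀ u, (O u).card = (O x0).card := fun u => card_inv2 R hRinv u x0
    have hI : ∀ u, (I u).card = (I x0).card := fun u =>
      card_inv2 (fun u v => R v u) (fun g a b h => hRinv g b a h) u x0
    have hOI : (O x0).card = (I x0).card := by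
      have : ∑ u, ∑ _v ∈ O u, 1 = ∑ v, ∑ _u ∈ I v, 1 := by
        apply Finset.sum_comm'
        intro u v
        simp [O, I]
      simp only [sum_const, smul_eq_mul, mul_one, hO, hI, card_univ, ← hn'] at this
      exact Nat.eq_of_mul_eq_mul_left (by omega) this
    have hk2 : k = (O x0).card + (I x0).card := by
      have hdis : Disjoint (O x0) (I x0) := by
        rw [disjoint_left]
        intro z a b
        simp only [O, I, mem_filter, mem_univ, true_and] at a b
        exact hasym _ _ a b
      rw [hk, ← card_union_of_disjoint hdis]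
      congr 1
      ext z
      simp [N, O, I, adj]
    -- count triples
    have t1 : ∑ z, ∑ u ∈ O z, ∑ _v ∈ I z, 1 ≤ ∑ z, ∑ u, ∑ v ∈ univ.erase u, if z ∈ D u v ∧ R z u then 1 else 0 := by
      refine Finset.sum_le_sum fun z _ => ?_
      refine le_trans (Finset.sum_le_sum fun u hu => ?_) (Finset.sum_le_sum_of_subset (subset_univ _))
      simp only [O, mem_filter, mem_univ, true_and] at hu
      rw [← Finset.card_filter, sum_const, smul_eq_mul, mul_one]
      apply card_le_card
      intro v hv
      simp only [I, mem_filter, mem_univ, true_and] at hv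
      simp only [mem_filter, mem_erase, mem_univ, and_true]
      refine ⟨?_, hmemD R hRinv z u v hu (fun h => hasym _ _ h hv), hu⟩
      rintro rfl
      exact hasym _ _ hu hv
    have t2 : ∑ z, ∑ u ∈ I z, ∑ _v ∈ O z, 1 ≤ ∑ z, ∑ u, ∑ v ∈ univ.erase u, if z ∈ D u v ∧ ¬ R z u then 1 else 0 := by
      refine Finset.sum_le_sum fun z _ => ?_
      refine le_trans (Finset.sum_le_sum fun u hu => ?_) (Finset.sum_le_sum_of_subset (subset_univ _))
      simp only [I, mem_filter, mem_univ, true_and] at hu
      rw [← Finset.card_filter, sum_const, smul_eq_mul, mul_one]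
      apply card_le_card
      intro v hv
      simp only [O, mem_filter, mem_univ, true_and] at hv
      simp only [mem_filter, mem_erase, mem_univ, and_true]
      refine ⟨?_, ?_, fun h => hasym _ _ h hu⟩
      · rintro rfl
        exact hasym _ _ hu hv
      · rw [hDs]; exact hmemD R hRinv z v u hv (fun h => hasym _ _ h hu)
    have t3 : (∑ z, ∑ u, ∑ v ∈ univ.erase u, if z ∈ D u v ∧ R z u then 1 else 0) +
        (∑ z, ∑ u, ∑ v ∈ univ.erase u, if z ∈ D u v ∧ ¬ R z u then 1 else 0) = n * ((n - 1) * d) := by
      rw [← Finset.sum_add_distrib]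
      simp_rw [← Finset.sum_add_distrib]
      have : ∀ z u v, ((if z ∈ D u v ∧ R z u then 1 else 0) + (if z ∈ D u v ∧ ¬ R z u then 1 else 0) : ℕ) =
          if z ∈ D u v then 1 else 0 := by
        intro z u v
        by_cases a : z ∈ D u v <;> by_cases b : R z u <;> simp [a, b]
      simp_rw [this]
      rw [Finset.sum_comm]
      have : ∀ u : Ω, ∑ z, ∑ v ∈ univ.erase u, (if z ∈ D u v then 1 else 0) = (n - 1) * d := by
        intro u
        rw [Finset.sum_comm]
        have : ∀ v ∈ univ.erase u, ∑ z, (if z ∈ D u v then 1 else 0) = d := by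
          intro v hv
          rw [← Finset.card_filter, ← hD u v (hall u v (ne_of_mem_erase hv).symm)]
          simp
        rw [Finset.sum_congr rfl this, sum_const, card_erase_of_mem (mem_univ _), card_univ, smul_eq_mul]
      simp_rw [this]
      simp [hn']
    simp only [sum_const, smul_eq_mul, mul_one, hO, hI, card_univ, ← hn'] at t1 t2
    rw [← hOI] at t1 t2 hk2
    set a := (O x0).card
    have t4 : n * (2 * (a * a)) ≤ n * ((n - 1) * d) := by nlinarith
    have t5 := Nat.le_of_mul_le_mul_left t4 (by omega)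
    have t6 : n - 1 = 2 * a := by omega
    rw [t6] at t5 ⊢
    have t7 : a ≤ d := by
      by_contra h
      push Not at h
      nlinarith
    have t8 : 3 ≤ a := by omega
    nlinarith
  · have hA : 2 * (k' * (k - d)) ≤ k * (d - 2) := by
      have a1 : ∀ z ∈ N' x0, k - d ≤ ∑ y ∈ N x0, if adj y z then 1 else 0 := by
        intro z hz
        rw [hmN'] at hz
        rcases hrel x0 z with h | h | ⟨y, a, b⟩
        · exact absurd h hz.1
        · exact absurd h hz.2
        have e1 := h0 _ _ a
        have e2 := h0 _ _ b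
        have e4 := hsd x0 y z
        have e6 := card_sdiff_add_card_inter (N x0) (N z)
        rw [← Finset.card_filter]
        have : (N x0).filter (fun y => adj y z) = N x0 ∩ N z := by
          ext u
          simp only [mem_filter, mem_inter, hmN]
          exact and_congr_right fun _ => ⟨hsym _ _, hsym _ _⟩
        rw [this]
        omega
      have a2 : ∀ y ∈ N x0, 2 * (∑ z ∈ N' x0, if adj y z then 1 else 0) ≤ d - 2 := by
        intro y hy
        rw [hmN] at hy
        rw [← Finset.card_filter]
        have e1 := h0 _ _ (hsym _ _ hy)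
        have hx : x0 ∈ N y \ N x0 := by
          rw [mem_sdiff, hmN, hmN]
          exact ⟨hsym _ _ hy, fun h => hirr _ _ h rfl⟩
        have : (N' x0).filter (fun z => adj y z) ⊆ (N y \ N x0).erase x0 := by
          intro z hz
          simp only [mem_filter, hmN', mem_erase, mem_sdiff, hmN] at hz ⊢
          exact ⟨hz.1.1.symm, hz.2, hz.1.2⟩
        have e2 := card_le_card this
        rw [card_erase_of_mem hx] at e2
        have e3 := card_pos.mpr ⟨x0, hx⟩
        omega
      have a3 := Finset.sum_le_sum a1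
      have a4 := Finset.sum_le_sum a2
      rw [← Finset.mul_sum, Finset.sum_comm] at a4
      simp only [sum_const, smul_eq_mul, ← hk, ← hk'] at a3 a4
      omega
    have hB : k ≤ k' * (k' - 1) := by
      have b1 : ∃ u v w, adj u v ∧ (u ≠ w ∧ ¬ adj u w) ∧ (v ≠ w ∧ ¬ adj v w) := by
        by_contra hc
        push Not at hc
        have htr : ∀ a b c, ¬ adj a b → ¬ adj b c → ¬ adj a c := by
          intro a b c h h' h''
          by_cases e1 : a = b
          · subst e1; exact h' h''
          by_cases e2 : c = b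
          · subst e2; exact h h''
          exact h' (hsym _ _ (hc a c b h'' ⟨e1, h⟩ e2))
        rcases prim_equiv hG (fun a b => ¬ adj a b)
          ⟨fun a h => hirr _ _ h rfl, fun h h' => h (hsym _ _ h'), fun h h' => htr _ _ _ h h'⟩
          (fun g a b h h' => h (by simpa using hainv g⁻¹ _ _ h')) with h | h
        · obtain ⟨v, hv⟩ := card_pos.mp hk0
          rw [hmN'] at hv
          exact hv.1 (h _ _ hv.2)
        · exact h _ _ hadj0
      obtain ⟨u, v, w, c1, c2, c3⟩ := b1
      have b2 : ∃ w, (x0 ≠ w ∧ ¬ adj x0 w) ∧ (y0 ≠ w ∧ ¬ adj y0 w) := by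
        rcases c1 with ⟨g, rfl, rfl⟩ | ⟨g, rfl, rfl⟩
        · refine ⟨g⁻¹ • w, ?_, ?_⟩
          · simpa using hninv g⁻¹ _ _ c2
          · simpa using hninv g⁻¹ _ _ c3
        · refine ⟨g⁻¹ • w, ?_, ?_⟩
          · simpa using hninv g⁻¹ _ _ c3
          · simpa using hninv g⁻¹ _ _ c2
      obtain ⟨w0, c4, c5⟩ := b2
      have b3 : ∀ u v, adj u v → ∃ w, (u ≠ w ∧ ¬ adj u w) ∧ (v ≠ w ∧ ¬ adj v w) := by
        rintro u v (⟨g, rfl, rfl⟩ | ⟨g, rfl, rfl⟩)
        · exact ⟨g • w0, hninv g _ _ c4, hninv g _ _ c5⟩
        · exact ⟨g • w0, hninv g _ _ c5, hninv g _ _ c4⟩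
      have b4 : N x0 ⊆ (N' x0).biUnion (fun w => (N' w).erase x0) := by
        intro y hy
        rw [hmN] at hy
        obtain ⟨w, e1, e2⟩ := b3 _ _ hy
        simp only [mem_biUnion, mem_erase, hmN']
        exact ⟨w, e1, (hirr _ _ hy).symm, e2.1.symm, fun h => e2.2 (hsym _ _ h)⟩
      have b5 := le_trans (card_le_card b4) card_biUnion_le
      have b6 : ∀ w ∈ N' x0, ((N' w).erase x0).card = k' - 1 := by
        intro w hw
        rw [hmN'] at hw
        rw [card_erase_of_mem ((hmN' _ _).mpr ⟨hw.1.symm, fun h => hw.2 (hsym _ _ h)⟩), hNk']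
      rw [Finset.sum_congr rfl b6, sum_const, smul_eq_mul] at b5
      exact b5
    rw [← hsum]
    exact arith_uni hA hB h3 hd2 hk0

theorem sep_uni (hG : IsPreprimitive G Ω) (h2 : ¬ IsMultiplyPretransitive G Ω 2) (hn : 7 ≤ Fintype.card Ω)
    (e : ℕ) (he : 3 * (e + 1) ^ 2 < 4 * (Fintype.card Ω - 1)) : Sep G Ω (fun _ => e) (fun _ => 0) := by
  classical
  intro x y hxy
  refine ⟨∅, fun t => by simp, fun S _ _ => ?_⟩
  have h := sep_card hG h2 hn hxy
  set D := univ.filter (fun z => ¬ Good G {z} x y)
  refine ⟨(D.erase x).erase y, by simp, by simp, ?_, fun z hz hg => ?_⟩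
  · have h1 : e + 2 ≤ D.card := by
      by_contra h3
      push Not at h3
      have : D.card ^ 2 ≤ (e + 1) ^ 2 := Nat.pow_le_pow_left (by omega) 2
      omega
    have h4 := pred_card_le_card_erase (s := D) (a := x)
    have h5 := pred_card_le_card_erase (s := D.erase x) (a := y)
    show e ≤ _
    omega
  · have : z ∈ D := mem_of_mem_erase (mem_of_mem_erase hz)
    simp only [D, mem_filter, mem_univ, true_and] at this
    exact this (hg.mono (by simp))

end H96.PS
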